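import Mathlib
import Cfsg.Prelude.Def_JankoFourType
import Cfsg.Agent.H17.J4Card

/-!
# Maximal subgroups of the fourth Janko group: data and statements of the pieces

Every overgroup `H` of the subgroup in question is studied through its order (Sylow congruences for
the self-centralizing primes), and through explicit computations in the model of degree 112.
-/

set_option autoImplicit false

namespace Cfsg.Agent.H97.JM

open Subgroup

universe u

/-- Global facts about the group. -/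
structure Ctx (G : Type u) [Group G] : Prop where
  simple : IsSimpleGroup G
  card : Nat.card G = 86775571046077562880
  big : ∀ p e : ℕ, (p, e) ∈ [(23, 22), (29, 28), (31, 10), (37, 12), (43, 14)] → ∀ a : G,
    orderOf a = p → centralizer ({a} : Set G) = zpowers a ∧
      Nat.card (normalizer ((zpowers a : Subgroup G) : Set G)) = p * e
  n7 : ∀ a : G, orderOf a = 7 → Nat.card (normalizer ((zpowers a : Subgroup G) : Set G)) = 2520
  c7 : ∀ a : G, orderOf a = 7 → Nat.card (centralizer ({a} : Set G)) = 840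
  k7 : ∀ a : G, orderOf a = 7 → ∀ Q : Subgroup G, Q ≤ centralizer ({a} : Set G) → Nat.card Q = 8 →
    ∃ b ∈ Q, ∃ c ∈ Q, b ≠ c ∧ orderOf b = 2 ∧ orderOf c = 2
  c3 : ∀ a : G, orderOf a = 3 → Nat.card (centralizer ({a} : Set G)) = 2661120
  n11 : ∀ U : Sylow 11 G, Nat.card (U : Subgroup G) = 1331 ∧
    Nat.card (normalizer ((U : Subgroup G) : Set G)) = 319440
  ti : ∀ U U' : Sylow 11 G, (U : Subgroup G) ⊓ (U' : Subgroup G) ≠ ⊥ → U = U'
  ev : ∀ T : Sylow 2 G, ∃ V : Subgroup G, V ≤ (T : Subgroup G) ∧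
    (T : Subgroup G) ≤ normalizer (V : Set G) ∧ (∀ v ∈ V, v * v = 1) ∧ Nat.card V = 2 ^ 11

/-- Local facts at the central involution `z` and an element `x` of order eleven. -/
structure ZD {G : Type u} [Group G] (z x : G) (Q : Subgroup G) (U : Sylow 11 G) : Prop where
  z2 : orderOf z = 2
  cz : Nat.card (centralizer ({z} : Set G)) = 21799895040
  x11 : orderOf x = 11
  xz : x * z = z * x
  Qle : Q ≤ centralizer ({z} : Set G)
  Qn : centralizer ({z} : Set G) ≤ normalizer (Q : Set G)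
  Qc : Nat.card Q = 2 ^ 13
  zQ : z ∈ Q
  Qz : ∀ c : G, c * z = z * c → (∀ q ∈ Q, c * q = q * c) → c = 1 ∨ c = z
  cD : Nat.card ↥(centralizer ({z} : Set G) ⊓ centralizer ({x} : Set G)) = 264
  invD : ∀ v : G, v * v = 1 → v * z = z * v → v * x = x * v → v = 1 ∨ v = z
  cN : Nat.card ↥(centralizer ({z} : Set G) ⊓ normalizer ((zpowers x : Subgroup G) : Set G)) = 2640
  xU : x ∈ (U : Subgroup G)
  Ux : ∀ v ∈ (U : Subgroup G), v * x = x * v
  nU : normalizer ((U : Subgroup G) : Set G) = normalizer ((zpowers x : Subgroup G) : Set G)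
  Uz : ∀ v ∈ (U : Subgroup G), v * z = z * v → v ∈ zpowers x
  R3 : ∃ R : Sylow 3 G, (R : Subgroup G) ≤ centralizer ({z} : Set G) ∧
    normalizer ((R : Subgroup G) : Set G) ≤ centralizer ({z} : Set G)

/-- The group is embedded in the explicit matrix group and contains the three generators. -/
def Model (G : Type u) [Group G] : Prop :=
  ∃ ρ : G →* H17.J4R.GL112, Function.Injective ρ ∧ H17.J4R.gX ∈ ρ.range ∧ H17.J4R.gY ∈ ρ.range ∧
    H17.J4R.gT ∈ ρ.range

/-- Sylow's congruence for a prime dividing the order once. -/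
def cg (n p : ℕ) (ds : List ℕ) : Bool :=
  n % p != 0 || ds.any fun d => n % (p * d) == 0 && n / (p * d) % p == 1

/-- The congruences for the five large primes. -/
def ok (n : ℕ) : Bool :=
  cg n 23 [1, 2, 11, 22] && cg n 29 [1, 2, 4, 7, 14, 28] && cg n 31 [1, 2, 5, 10] &&
    cg n 37 [1, 2, 3, 4, 6, 12] && cg n 43 [1, 2, 7, 14]

/-- A test on all divisors of the group order. -/
def allD (P : ℕ → Bool) : Bool :=
  (List.range 22).all fun a => [1, 3, 9, 27].all fun b => [1, 5].all fun c => [1, 7].all fun d =>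
    [1, 11, 121, 1331].all fun e => [1, 23].all fun f => [1, 29].all fun g => [1, 31].all fun h =>
      [1, 37].all fun i => [1, 43].all fun j => P (2 ^ a * b * c * d * e * f * g * h * i * j)

/-- The computation at the prime `43`. -/
def C43 (G : Type u) [Group G] : Prop :=
  ∃ g h : G, orderOf g = 43 ∧ orderOf h = 14 ∧ h * g * h⁻¹ ∈ zpowers g ∧
    ∀ H : Subgroup G, g ∈ H → h ∈ H → ∀ n ∈ H, n * h ^ 2 * n⁻¹ ∈ zpowers (h ^ 2) →
      n ∈ zpowers h ∨ (23 ∣ Nat.card H ∧ 37 ∣ Nat.card H)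

/-- The computation at the prime `29`. -/
def C29 (G : Type u) [Group G] : Prop :=
  ∃ g h : G, orderOf g = 29 ∧ orderOf h = 28 ∧ h * g * h⁻¹ ∈ zpowers g ∧
    ∀ H : Subgroup G, g ∈ H → h ∈ H → ∀ n ∈ H, n * h ^ 4 * n⁻¹ ∈ zpowers (h ^ 4) →
      n ∈ zpowers h ∨ (37 ∣ Nat.card H ∧ 43 ∣ Nat.card H)

/-- The computation at the prime `37`. -/
def C37 (G : Type u) [Group G] : Prop :=
  ∃ g w : G, orderOf g = 37 ∧ orderOf w = 12 ∧ w * g * w⁻¹ ∈ zpowers g ∧
    (∀ H : Subgroup G, g ∈ H → w ∈ H → ∀ n ∈ H, n * w ^ 2 * n⁻¹ ∈ zpowers (w ^ 2) →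
      n ∈ zpowers w ∨ (23 ∣ Nat.card H ∧ 31 ∣ Nat.card H)) ∧
    (∀ H : Subgroup G, g ∈ H → w ∈ H → ∀ c : G, c * w ^ 4 = w ^ 4 * c → c * w ^ 6 * c⁻¹ ∈ H →
      c * w ^ 6 = w ^ 6 * c ∨ (23 ∣ Nat.card H ∧ 31 ∣ Nat.card H))

/-! ### General lemmas -/

def ALLD : Prop := ∀ P : ℕ → Bool, allD P = true → ∀ n, n ∣ 86775571046077562880 → P n = true

def CONG : Prop := ∀ (G : Type u) [Group G] [Finite G] (H : Subgroup G) (p e : ℕ) (a : G), p.Prime →
  a ∈ H → orderOf a = p → ¬ p ^ 2 ∣ Nat.card H →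
  Nat.card (normalizer ((zpowers a : Subgroup G) : Set G)) = p * e →
  ∃ d, Nat.card ↥(H ⊓ normalizer ((zpowers a : Subgroup G) : Set G)) = p * d ∧ d ∣ e ∧
    p * d ∣ Nat.card H ∧ Nat.card H / (p * d) % p = 1

def OK : Prop := ∀ (G : Type u) [Group G] [Finite G], Ctx G → ∀ H : Subgroup G,
  ok (Nat.card H) = true

def SYL : Prop := ∀ (G : Type u) [Group G] [Finite G] (p : ℕ) [Fact p.Prime] (S : Sylow p G)
  (M H : Subgroup G), (S : Subgroup G) ≤ M → M ≤ H →
  H ⊓ normalizer ((S : Subgroup G) : Set G) ≤ M → Nat.card H / Nat.card M % p = 1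

def TI : Prop := ∀ (G : Type u) [Group G] [Finite G], Ctx G → ∀ (U : Sylow 11 G) (H : Subgroup G),
  (U : Subgroup G) ≤ H →
  Nat.card H / Nat.card ↥(H ⊓ normalizer ((U : Subgroup G) : Set G)) % 1331 = 1

def NC : Prop := ∀ (G : Type u) [Group G] [Finite G] (H : Subgroup G) (r : ℕ) (x : G), r.Prime →
  x ∈ H → orderOf x = r →
  H ⊓ normalizer ((zpowers x : Subgroup G) : Set G) ≤ centralizer ({x} : Set G) →
  ¬ r ^ 2 ∣ Nat.card ↥(H ⊓ centralizer ({x} : Set G)) →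
  ∃ R : Subgroup G, R ≤ H ∧ H ≤ normalizer (R : Set G) ∧ Nat.card H = r * Nat.card R ∧
    ¬ r ∣ Nat.card R

def FIX : Prop := ∀ (G : Type u) [Group G] [Finite G] (R : Subgroup G) (r : ℕ) (x : G), r.Prime →
  orderOf x = r → x ∈ normalizer (R : Set G) →
  Nat.card R % r = Nat.card ↥(R ⊓ centralizer ({x} : Set G)) % r

def INV : Prop := ∀ (G : Type u) [Group G] [Finite G] (R : Subgroup G) (r q : ℕ) (x : G), r.Prime →
  q.Prime → orderOf x = r → x ∈ normalizer (R : Set G) → ¬ r ∣ Nat.card R →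
  ∃ S : Subgroup G, S ≤ R ∧ Nat.card S = q ^ (Nat.card R).factorization q ∧
    x ∈ normalizer (S : Set G)

def FR : Prop := ∀ (G : Type u) [Group G] [Finite G] (p : ℕ) [Fact p.Prime] (S : Sylow p G)
  (K H : Subgroup G), (S : Subgroup G) ≤ K → K ≤ H → H ≤ normalizer (K : Set G) →
  Nat.card H ∣ Nat.card K * Nat.card (normalizer ((S : Subgroup G) : Set G))

def TR : Prop := ∀ (G : Type u) [Group G] [Finite G] (p : ℕ) [Fact p.Prime] (S S' : Sylow p G),
  IsCoatom (normalizer ((S : Subgroup G) : Set G)) →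
  IsCoatom (normalizer ((S' : Subgroup G) : Set G))

def SM : Prop := ∀ (G : Type u) [Group G] [Finite G] (A B H : Subgroup G),
  (∀ a ∈ A, a * a = 1) → Nat.card A = 2 ^ 10 → B ≤ normalizer (A : Set G) → B ⊓ A = ⊥ →
  B ⊔ A = normalizer (A : Set G) → IsSimpleGroup B → Nat.card B = 9999360 →
  (∀ W : Subgroup G, W ≤ A → normalizer (A : Set G) ≤ normalizer (W : Set G) → W = ⊥ ∨ W = A) →
  normalizer (A : Set G) ≤ H → Nat.card H ≤ 33 * Nat.card (normalizer (A : Set G)) →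
  H ≤ normalizer (A : Set G)

/-! ### The cases -/

def CV : Prop := ∀ (G : Type u) [Group G] [Finite G], Ctx G → ∀ M : Subgroup G,
  Nat.card M = 501397585920 → IsCoatom M

def CL : Prop := ∀ (G : Type u) [Group G] [Finite G], Ctx G → ∀ (M : Subgroup G) (F : Sylow 5 G)
  (S : Sylow 7 G), Nat.card M = 660602880 → normalizer ((F : Subgroup G) : Set G) ≤ M →
  normalizer ((S : Subgroup G) : Set G) ≤ M → IsCoatom M

def CA : Prop := ∀ (G : Type u) [Group G] [Finite G], Ctx G → ∀ A B : Subgroup G,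
  (∀ a ∈ A, a * a = 1) → Nat.card A = 2 ^ 10 → B ≤ normalizer (A : Set G) → B ⊓ A = ⊥ →
  B ⊔ A = normalizer (A : Set G) → IsSimpleGroup B → Nat.card B = 9999360 →
  (∀ W : Subgroup G, W ≤ A → normalizer (A : Set G) ≤ normalizer (W : Set G) → W = ⊥ ∨ W = A) →
  IsCoatom (normalizer (A : Set G))

def CZ : Prop := ∀ (G : Type u) [Group G] [Finite G], Ctx G → ∀ (z x : G) (Q : Subgroup G)
  (U : Sylow 11 G), ZD z x Q U → IsCoatom (normalizer ((U : Subgroup G) : Set G)) →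
  IsCoatom (centralizer ({z} : Set G))

def EA : Prop := ∀ (G : Type u) [Group G] [Finite G], Ctx G → ∀ (z : G) (H : Subgroup G),
  orderOf z = 2 → z ∈ H → 2 ^ 19 ∣ Nat.card H →
  ∃ B : Subgroup G, B ≤ H ⊓ centralizer ({z} : Set G) ∧ z ∈ B ∧ (∀ b ∈ B, b * b = 1) ∧
    2 ^ 6 ∣ Nat.card B

def EB : Prop := ∀ (G : Type u) [Group G] [Finite G], Ctx G → ∀ (z x : G) (Q : Subgroup G)
  (U : Sylow 11 G), ZD z x Q U → ∀ H : Subgroup G, normalizer ((U : Subgroup G) : Set G) ≤ H →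
  (∃ f, Nat.card ↥(H ⊓ centralizer ({z} : Set G)) = 2640 * f ∧ f % 11 = 1) ∧
    (Q ≤ H ∨ (Nat.card ↥(H ⊓ Q) = 8 ∧ ∀ v ∈ H ⊓ Q, v * v = 1 → v = 1 ∨ v = z))

def EC : Prop := ∀ (G : Type u) [Group G] [Finite G] (z x : G) (Q : Subgroup G)
  (U : Sylow 11 G), ZD z x Q U → ∀ (H : Subgroup G) (k : ℕ), Q ≤ H → 2 ^ k ∣ Nat.card H →
  2 ^ k ∣ Nat.card ↥(H ⊓ centralizer ({z} : Set G))

def ED : Prop := ∀ (G : Type u) [Group G] [Finite G], Ctx G → ∀ (z x : G) (Q : Subgroup G)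
  (U : Sylow 11 G), ZD z x Q U → ∀ H : Subgroup G, normalizer ((U : Subgroup G) : Set G) ≤ H →
  Nat.card H = 121 * Nat.card ↥(H ⊓ centralizer ({z} : Set G)) →
  H ≤ normalizer ((U : Subgroup G) : Set G)

def EE : Prop := ∀ (G : Type u) [Group G] [Finite G], Ctx G → ∀ (z x : G) (Q : Subgroup G)
  (U : Sylow 11 G), ZD z x Q U → ∀ (H B : Subgroup G) (f : ℕ),
  Nat.card ↥(H ⊓ centralizer ({z} : Set G)) = 2640 * f → f % 11 = 1 → f ∣ 688128 →
  Nat.card ↥(H ⊓ Q) = 8 → (∀ v ∈ H ⊓ Q, v * v = 1 → v = 1 ∨ v = z) →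
  B ≤ H ⊓ centralizer ({z} : Set G) → z ∈ B → (∀ b ∈ B, b * b = 1) → 2 ^ 6 ∣ Nat.card B → False

def E11 : Prop := ∀ (G : Type u) [Group G] [Finite G], Ctx G → ∀ (z x : G) (Q : Subgroup G)
  (U : Sylow 11 G), ZD z x Q U → ∀ H : Subgroup G, normalizer ((U : Subgroup G) : Set G) ≤ H →
  Nat.card H ≠ 688128 * 319440

def C11 : Prop := ∀ (G : Type u) [Group G] [Finite G], Ctx G → ∀ U : Sylow 11 G,
  (∀ a : G, orderOf a = 29 → IsCoatom (normalizer ((zpowers a : Subgroup G) : Set G))) →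
  (∀ H : Subgroup G, normalizer ((U : Subgroup G) : Set G) ≤ H → Nat.card H ≠ 688128 * 319440) →
  IsCoatom (normalizer ((U : Subgroup G) : Set G))

def P43 : Prop := ∀ (G : Type u) [Group G] [Finite G], Ctx G → C43 G →
  ∃ g : G, orderOf g = 43 ∧ IsCoatom (normalizer ((zpowers g : Subgroup G) : Set G))

def P29 : Prop := ∀ (G : Type u) [Group G] [Finite G], Ctx G → C29 G →
  ∃ g : G, orderOf g = 29 ∧ IsCoatom (normalizer ((zpowers g : Subgroup G) : Set G))

def PN : Prop := ∀ (G : Type u) [Group G] [Finite G], Ctx G → ∀ (g w : G) (H : Subgroup G),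
  orderOf g = 37 → orderOf w = 12 → w * g * w⁻¹ ∈ zpowers g → g ∈ H → w ∈ H →
  H ⊓ normalizer ((zpowers (w ^ 4) : Subgroup G) : Set G) ≤ zpowers w → Nat.card H = 444

def P37 : Prop := ∀ (G : Type u) [Group G] [Finite G], Ctx G → C37 G →
  ∃ g : G, orderOf g = 37 ∧ IsCoatom (normalizer ((zpowers g : Subgroup G) : Set G))

/-! ### From the hypothesis to the data -/

def X1 : Prop := ∀ (G : Type u) [Group G] [Finite G] [IsSimpleGroup G], ¬ IsMulCommutative G →
  IsOfJankoFourType G → Nat.card G = 86775571046077562880 ∧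
  (∀ p e : ℕ, (p, e) ∈ [(23, 22), (29, 28), (31, 10), (37, 12), (43, 14)] → ∀ a : G,
    orderOf a = p → centralizer ({a} : Set G) = zpowers a ∧
      Nat.card (normalizer ((zpowers a : Subgroup G) : Set G)) = p * e) ∧
  (∀ T : Sylow 2 G, ∃ V : Subgroup G, V ≤ (T : Subgroup G) ∧
    (T : Subgroup G) ≤ normalizer (V : Set G) ∧ (∀ v ∈ V, v * v = 1) ∧ Nat.card V = 2 ^ 11)

def X2 : Prop := ∀ (G : Type u) [Group G] [Finite G] [IsSimpleGroup G], ¬ IsMulCommutative G →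
  IsOfJankoFourType G → ∀ a : G, orderOf a = 7 →
  Nat.card (normalizer ((zpowers a : Subgroup G) : Set G)) = 2520 ∧
  Nat.card (centralizer ({a} : Set G)) = 840 ∧
  ∀ Q : Subgroup G, Q ≤ centralizer ({a} : Set G) → Nat.card Q = 8 →
    ∃ b ∈ Q, ∃ c ∈ Q, b ≠ c ∧ orderOf b = 2 ∧ orderOf c = 2

def X3 : Prop := ∀ (G : Type u) [Group G] [Finite G] [IsSimpleGroup G], ¬ IsMulCommutative G →
  IsOfJankoFourType G → ∀ a : G, orderOf a = 3 → Nat.card (centralizer ({a} : Set G)) = 2661120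

def X4 : Prop := ∀ (G : Type u) [Group G] [Finite G] [IsSimpleGroup G], ¬ IsMulCommutative G →
  IsOfJankoFourType G → ∀ U U' : Sylow 11 G, (U : Subgroup G) ⊓ (U' : Subgroup G) ≠ ⊥ → U = U'

def X5 : Prop := ∀ (G : Type u) [Group G] [Finite G] [IsSimpleGroup G], ¬ IsMulCommutative G →
  ∀ z : G, IsOfJankoFourTypeAt z → ∃ (x : G) (Q : Subgroup G) (U : Sylow 11 G), ZD z x Q U

def X6 : Prop := ∀ (G : Type u) [Group G] [Finite G] [IsSimpleGroup G], ¬ IsMulCommutative G →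
  IsOfJankoFourType G → Model G

def X7 : Prop := ∀ (G : Type u) [Group G] [Finite G] [IsSimpleGroup G], ¬ IsMulCommutative G →
  IsOfJankoFourType G →
  (∀ V : Subgroup G, IsElementaryAbelian 2 V → Nat.card V = 2 ^ 11 →
    Nat.card (normalizer (V : Set G)) = 501397585920) ∧
  (∀ A : Subgroup G, IsElementaryAbelian 2 A → Nat.card A = 2 ^ 10 → centralizer (A : Set G) = A →
    ∃ B : Subgroup G, (∀ a ∈ A, a * a = 1) ∧ B ≤ normalizer (A : Set G) ∧ B ⊓ A = ⊥ ∧
      B ⊔ A = normalizer (A : Set G) ∧ IsSimpleGroup B ∧ Nat.card B = 9999360 ∧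
      ∀ W : Subgroup G, W ≤ A → normalizer (A : Set G) ≤ normalizer (W : Set G) → W = ⊥ ∨ W = A) ∧
  ∃ (L : Subgroup G) (F : Sylow 5 G) (S : Sylow 7 G), IsSpecial 2 L ∧ Nat.card L = 2 ^ 15 ∧
    Nat.card (center L) = 8 ∧ Nat.card (normalizer (L : Set G)) = 660602880 ∧
    normalizer ((F : Subgroup G) : Set G) ≤ normalizer (L : Set G) ∧
    normalizer ((S : Subgroup G) : Set G) ≤ normalizer (L : Set G)

end Cfsg.Agent.H97.JM
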