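import Cfsg.Agent.H97.JmDefs

/-!
# The subgroups `PGL(2, 23)` and `L2(32) : 5` of the fourth Janko group: statements of the pieces
-/

set_option autoImplicit false

namespace Cfsg.Agent.H97.JM

open Subgroup

universe u

def BP : Prop := ∀ (G : Type u) [Group G] (X H W : G), X ^ 23 = 1 → X ≠ 1 → H ^ 22 = 1 →
  H * X = X ^ 5 * H → W * W = 1 → W * H * (W * H) = 1 → (W * X) ^ 3 = 1 →
  Nonempty (↥(closure ({X, H, W} : Set G)) ≃*
    GL (Fin 2) (ZMod 23) ⧸ center (GL (Fin 2) (ZMod 23))) ∧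
  Nat.card (closure ({X, H, W} : Set G)) = 12144

def B32 : Prop := ∀ (G : Type u) [Group G] (X H W : G), X * X = 1 → X ≠ 1 → H ^ 31 = 1 →
  (∀ i ∈ [1, 2, 3, 4], X * (H ^ i * X) * H ^ (31 - i) = H ^ i * X * H ^ (31 - i) * X) →
  X * (H ^ 2 * X) * H ^ 29 = H ^ 5 * X * H ^ 26 → W * W = 1 → W * H * (W * H) = 1 →
  (W * X) ^ 3 = 1 →
  (∃ (F : Type) (_ : Field F) (_ : Fintype F), Fintype.card F = 32 ∧
    Nonempty (↥(closure ({X, H, W} : Set G)) ≃* Matrix.ProjectiveSpecialLinearGroup (Fin 2) F)) ∧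
  Nat.card (closure ({X, H, W} : Set G)) = 32736

def EXT : Prop := ∀ (G : Type u) [Group G] [Finite G] (X H W f : G),
  Nat.card (closure ({X, H, W} : Set G)) = 32736 → orderOf f = 5 → f * X = X * f →
  f * H = H ^ 2 * f → f * W = W * f →
  Nat.card (closure ({X, H, W, f} : Set G)) = 163680 ∧
  ∃ K : Subgroup ↥(closure ({X, H, W, f} : Set G)), K.Normal ∧ K.index = 5 ∧
    Nonempty (↥K ≃* ↥(closure ({X, H, W} : Set G)))

def QP : Prop := ∀ (G : Type u) [Group G] [Finite G], Ctx G → ∀ (M : Subgroup G) (X h x : G),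
  Nat.card M = 12144 → X ∈ M → h ∈ M → x ∈ M → orderOf X = 23 → orderOf h = 22 →
  h * X * h⁻¹ ∈ zpowers X → orderOf x = 11 →
  (∀ H : Subgroup G, M ≤ H → ∀ n ∈ H, n * x * n⁻¹ ∈ zpowers x →
    n ∈ M ∨ (29 ∣ Nat.card H ∧ 43 ∣ Nat.card H)) → IsCoatom M

def QL : Prop := ∀ (G : Type u) [Group G] [Finite G], Ctx G → ∀ (M : Subgroup G) (a f x : G),
  Nat.card M = 163680 → a ∈ M → f ∈ M → x ∈ M → orderOf a = 31 → orderOf f = 5 → orderOf x = 11 →
  310 ∣ Nat.card ↥(M ⊓ normalizer ((zpowers a : Subgroup G) : Set G)) →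
  330 ∣ Nat.card ↥(M ⊓ normalizer ((zpowers x : Subgroup G) : Set G)) →
  (∀ H : Subgroup G, M ≤ H → ∀ n ∈ H, n * f * n⁻¹ ∈ zpowers f →
    n ∈ M ∨ (29 ∣ Nat.card H ∧ 37 ∣ Nat.card H)) → IsCoatom M

def NB : Prop := ∀ (G : Type u) [Group G] [Finite G], Ctx G →
  (∀ y : G, orderOf y = 11 → Nat.card (centralizer ({y} : Set G)) = 31944 ∨
    Nat.card (centralizer ({y} : Set G)) = 242) →
  ∀ x c b : G, orderOf x = 11 → orderOf c = 11 → orderOf b = 11 → c * x = x * c → c * b = b * c →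
  b * x ≠ x * b → Nat.card (normalizer ((zpowers x : Subgroup G) : Set G)) ≤ 2420

def Y5 : Prop := ∀ (G : Type u) [Group G] [Finite G] [IsSimpleGroup G], ¬ IsMulCommutative G →
  IsOfJankoFourType G →
  (∀ f : G, orderOf f = 5 → Nat.card (normalizer ((zpowers f : Subgroup G) : Set G)) = 26880) ∧
  ∀ y : G, orderOf y = 11 → Nat.card (centralizer ({y} : Set G)) = 31944 ∨
    Nat.card (centralizer ({y} : Set G)) = 242

end Cfsg.Agent.H97.JM
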