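import Cfsg.Agent.H97.JmTc43a
import Cfsg.Agent.H97.JmTc29a
import Cfsg.Agent.H97.JmTc37a
import Cfsg.Agent.H97.JmTc37b
import Cfsg.Agent.H97.JmTo37a
import Cfsg.Agent.H97.JmTo37b
import Cfsg.Agent.H97.JmTo37c
import Cfsg.Agent.H97.JmTo37d
import Cfsg.Agent.H97.JmTo37e
import Cfsg.Agent.H90.JmKC
import Cfsg.Agent.H9.JmVC

/-!
# The three computations
-/

set_option autoImplicit false
set_option maxRecDepth 1000000

namespace Cfsg.Agent.H97.JM

open Subgroup Cfsg.Agent.H42 Cfsg.Agent.H46 Cfsg.Agent.H17.J4R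

universe u

def tc43 : List Item := tc43_0 ++ (tc43_1 ++ (tc43_2 ++ (tc43_3)))

theorem tc43_chk : allL (cosB K43 L43 vC43 [false, true, true, true] [false, false, true, false, true]) tc43 = true :=
  allL_append tc43_0_chk (allL_append tc43_1_chk (allL_append tc43_2_chk (tc43_3_chk)))

theorem tc43_inc : incB (tc43.map fun it => it.2.1) 0 = true := by decide +kernel

theorem tc43_len : (tc43.map fun it => it.2.1).length = 180 := by decide +kernel

def tc29 : List Item := tc29_0 ++ (tc29_1)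

theorem tc29_chk : allL (cosB K29 L29 vC29 [false, false, true, false, true] [false, true, false, true, true]) tc29 = true :=
  allL_append tc29_0_chk (tc29_1_chk)

theorem tc29_inc : incB (tc29.map fun it => it.2.1) 0 = true := by decide +kernel

theorem tc29_len : (tc29.map fun it => it.2.1).length = 90 := by decide +kernel

def tc37 : List Item := tc37_0 ++ (tc37_1 ++ (tc37_2 ++ (tc37_3 ++ (tc37_4 ++ (tc37_5 ++ (tc37_6 ++ (tc37_7)))))))

theorem tc37_chk : allL (cosB K37 L37 vC37 [false, true, true, true] [true, true, true, true]) tc37 = true :=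
  allL_append tc37_0_chk (allL_append tc37_1_chk (allL_append tc37_2_chk (allL_append tc37_3_chk (allL_append tc37_4_chk (allL_append tc37_5_chk (allL_append tc37_6_chk (tc37_7_chk)))))))

theorem tc37_inc : incB (tc37.map fun it => it.2.1) 0 = true := by decide +kernel

theorem tc37_len : (tc37.map fun it => it.2.1).length = 384 := by decide +kernel

def to37 : List Item := to37_0 ++ (to37_1 ++ (to37_2 ++ (to37_3 ++ (to37_4 ++ (to37_5 ++ (to37_6 ++ (to37_7 ++ (to37_8 ++ (to37_9 ++ (to37_10 ++ (to37_11 ++ (to37_12 ++ (to37_13 ++ (to37_14 ++ (to37_15 ++ (to37_16 ++ (to37_17 ++ (to37_18 ++ (to37_19 ++ (to37_20 ++ (to37_21 ++ (to37_22 ++ (to37_23)))))))))))))))))))))))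

theorem to37_chk : allL (orbB Y37 I37 L37 U37 vO37 [false, true, true, true] [true, true, true, true]) to37 = true :=
  allL_append to37_0_chk (allL_append to37_1_chk (allL_append to37_2_chk (allL_append to37_3_chk (allL_append to37_4_chk (allL_append to37_5_chk (allL_append to37_6_chk (allL_append to37_7_chk (allL_append to37_8_chk (allL_append to37_9_chk (allL_append to37_10_chk (allL_append to37_11_chk (allL_append to37_12_chk (allL_append to37_13_chk (allL_append to37_14_chk (allL_append to37_15_chk (allL_append to37_16_chk (allL_append to37_17_chk (allL_append to37_18_chk (allL_append to37_19_chk (allL_append to37_20_chk (allL_append to37_21_chk (allL_append to37_22_chk (to37_23_chk)))))))))))))))))))))))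

theorem to37_inc : incB (to37.map fun it => it.2.1) 0 = true := by decide +kernel

theorem to37_len : (to37.map fun it => it.2.1).length = 1155 := by decide +kernel

variable {G : Type u} [Group G] [Finite G]

theorem pr2 {p a b : ℕ} (hp : p.Prime) {q : ℕ} (hq : q.Prime) (h : p ∣ 2 ^ a * q ^ b) :
    p = q ∨ p = 2 :=
  ((Nat.Prime.dvd_mul hp).mp h).elim
    (fun h => Or.inr ((Nat.prime_dvd_prime_iff_eq hp Nat.prime_two).mp (hp.dvd_of_dvd_pow h)))
    (fun h => Or.inl ((Nat.prime_dvd_prime_iff_eq hp hq).mp (hp.dvd_of_dvd_pow h)))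

omit [Finite G] in
theorem memL {ρ : G →* GL112} {a b : ℕ} {g h : G} (r : CG.R a (ρ g)) (s : CG.R b (ρ h)) :
    ∀ c ∈ [a, b], MemC ρ (closure {g, h}) c := by
  intro c hc
  simp only [List.mem_cons, List.not_mem_nil, or_false] at hc
  rcases hc with rfl | rfl
  · exact ⟨g, subset_closure (by simp), r⟩
  · exact ⟨h, subset_closure (by simp), s⟩

omit [Finite G] in
theorem clo_le {g h : G} {H : Subgroup G} (hg : g ∈ H) (hh : h ∈ H) : closure {g, h} ≤ H := by
  rw [closure_le]
  rintro x (rfl | rfl)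
  · exact hg
  · exact hh

theorem zp_le_norm (h : G) (k : ℕ) :
    zpowers h ≤ normalizer ((zpowers (h ^ k) : Subgroup G) : Set G) :=
  zpowers_le.mpr (H33.J4O.mem_norm_zp (by
    rw [← (Commute.self_pow h k).eq.symm, mul_inv_cancel_right]; exact mem_zpowers _))

theorem c43 (hM : Model G)
    (h7 : ∀ a : G, orderOf a = 7 →
      Nat.card (normalizer ((zpowers a : Subgroup G) : Set G)) = 2520) : C43 G := by
  obtain ⟨ρ, hρ, h0⟩ := model_spec hM
  have hB := wd_spec h0 B43_chk
  obtain ⟨g, -, r⟩ := hB B43_0 List.mem_cons_self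
  obtain ⟨h, -, s⟩ := hB B43_1 (List.mem_cons_of_mem _ List.mem_cons_self)
  obtain ⟨o1, a1, a2, a3, a4, x, hx, a5⟩ := rel_spec hρ r s (by norm_num) R43_chk
  have o2 : orderOf h = 14 := ord_of (p1 := 7) (p2 := 2) (by norm_num) a1 a2 a3 rfl rfl
    fun p pp pd => pr2 (a := 1) (b := 1) pp (by norm_num) pd
  have o3 : orderOf (h ^ 2) = 7 := by rw [orderOf_pow' _ (by norm_num), o2]; rfl
  have hK := nm_spec hρ (R_pow' s 2) (wd_spec hB K43_chk) N43_chk
  have hG := pKC G ρ hρ _ _ K43 L43 vC43 x _ _ hK (wd_spec (memL r s) L43_chk) hx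
    (by decide) (by decide) tc43 tc43_chk
  have hV := (pVC G ρ _ _ (zpowers h) x _ _ _ (pINC _ _ tc43_inc) hG (zp_le_norm h 2)
    (zpowers_le.mpr (subset_closure (by simp))) a5).2
    (by rw [tc43_len, Nat.card_zpowers, o2, h7 _ o3])
  exact ⟨g, h, o1, o2, a4, fun H hg hh n hn e =>
    (hV n (H33.J4O.mem_norm_zp e)).imp_right fun t => t H (clo_le hg hh) hn⟩

theorem c29 (hM : Model G)
    (h7 : ∀ a : G, orderOf a = 7 →
      Nat.card (normalizer ((zpowers a : Subgroup G) : Set G)) = 2520) : C29 G := by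
  obtain ⟨ρ, hρ, h0⟩ := model_spec hM
  have hB := wd_spec h0 B29_chk
  obtain ⟨g, -, r⟩ := hB B29_0 List.mem_cons_self
  obtain ⟨h, -, s⟩ := hB B29_1 (List.mem_cons_of_mem _ List.mem_cons_self)
  obtain ⟨o1, a1, a2, a3, a4, x, hx, a5⟩ := rel_spec hρ r s (by norm_num) R29_chk
  have o2 : orderOf h = 28 := ord_of (p1 := 7) (p2 := 2) (by norm_num) a1 a2 a3 rfl rfl
    fun p pp pd => pr2 (a := 2) (b := 1) pp (by norm_num) pd
  have o3 : orderOf (h ^ 4) = 7 := by rw [orderOf_pow' _ (by norm_num), o2]; rfl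
  have hK := nm_spec hρ (R_pow' s 4) (wd_spec hB K29_chk) N29_chk
  have hG := pKC G ρ hρ _ _ K29 L29 vC29 x _ _ hK (wd_spec (memL r s) L29_chk) hx
    (by decide) (by decide) tc29 tc29_chk
  have hV := (pVC G ρ _ _ (zpowers h) x _ _ _ (pINC _ _ tc29_inc) hG (zp_le_norm h 4)
    (zpowers_le.mpr (subset_closure (by simp))) a5).2
    (by rw [tc29_len, Nat.card_zpowers, o2, h7 _ o3])
  exact ⟨g, h, o1, o2, a4, fun H hg hh n hn e =>
    (hV n (H33.J4O.mem_norm_zp e)).imp_right fun t => t H (clo_le hg hh) hn⟩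

theorem c37 (hM : Model G)
    (h3 : ∀ a : G, orderOf a = 3 → Nat.card (centralizer ({a} : Set G)) = 2661120) : C37 G := by
  obtain ⟨ρ, hρ, h0⟩ := model_spec hM
  have hB := wd_spec h0 B37_chk
  obtain ⟨g, -, r⟩ := hB B37_0 List.mem_cons_self
  obtain ⟨h, -, s⟩ := hB B37_1 (List.mem_cons_of_mem _ List.mem_cons_self)
  obtain ⟨o1, a1, a2, a3, a4, x, hx, a5⟩ := rel_spec hρ r s (by norm_num) R37_chk
  have o2 : orderOf h = 12 := ord_of (p1 := 3) (p2 := 2) (by norm_num) a1 a2 a3 rfl rfl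
    fun p pp pd => pr2 (a := 2) (b := 1) pp (by norm_num) pd
  have o3 : orderOf (h ^ 4) = 3 := by rw [orderOf_pow' _ (by norm_num), o2]; rfl
  have o6 : orderOf (h ^ 2) = 6 := by rw [orderOf_pow' _ (by norm_num), o2]; rfl
  have hY := wd_spec hB Y37_chk
  obtain ⟨hI, hYI⟩ := inv_spec hρ (R_pow' s 4) hY I37_chk
  have hA : ∀ a ∈ Y37 ++ (I37 ++ [B37_4]), MemC ρ ⊤ a := fun a ha =>
    (List.mem_append.mp ha).elim (hY a) fun ha => (List.mem_append.mp ha).elim (hI a) fun ha => by
      rw [List.mem_singleton.mp ha]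
      exact hB _ (List.mem_cons_of_mem _ (List.mem_cons_of_mem _ (List.mem_cons_of_mem _
        (List.mem_cons_of_mem _ List.mem_cons_self))))
  have hK := nm_spec hρ (R_pow' s 2) (wd_spec hA K37_chk) N37_chk
  have hL := wd_spec (memL r s) L37_chk
  have hG := pKC G ρ hρ _ _ K37 L37 vC37 x _ _ hK hL hx (by decide) (by decide) tc37 tc37_chk
  obtain ⟨v1, v2⟩ := pVC G ρ _ _ (zpowers h) x _ _ _ (pINC _ _ tc37_inc) hG (zp_le_norm h 2)
    (zpowers_le.mpr (subset_closure (by simp))) a5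
  obtain ⟨y, hy⟩ : ∃ y, VP vO37 y := ⟨_, matData.P_dec (Equiv.refl _) (canon_of_lt vO37_chk)⟩
  have ru : CG.R U37 (ρ (h ^ 6)) := beq_iff.mp U37_chk ▸ R_pow' s 6
  have hO := pKO G ρ hρ _ _ Y37 I37 L37 U37 vO37 (h ^ 6) y _ _ hYI hL ru hy (by decide) (by decide)
    to37 to37_chk
  obtain ⟨w1, w2⟩ := pVO G ρ _ _ (h ^ 6) y _ _ _ (pINC _ _ to37_inc) hO
  have e : centralizer ({h ^ 4} : Set G) ⊓ centralizer ({h ^ 6} : Set G) =
      centralizer ({h ^ 2} : Set G) := by
    ext c
    simp only [mem_inf, H33.J4O.mcs]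
    constructor
    · rintro ⟨e1, e2⟩
      have : h ^ 2 = h ^ 6 * (h ^ 4)⁻¹ := by group
      rw [this]
      exact (Commute.mul_right e2 (Commute.inv_right e1)).eq
    · intro e1
      refine ⟨?_, ?_⟩
      · rw [show h ^ 4 = (h ^ 2) ^ 2 by group]; exact (Commute.pow_right e1 2).eq
      · rw [show h ^ 6 = (h ^ 2) ^ 3 by group]; exact (Commute.pow_right e1 3).eq
  have n6 := pN6 G _ o6
  rw [e, to37_len, h3 _ o3] at w1 w2
  rw [tc37_len, Nat.card_zpowers, o2] at v1 v2
  exact ⟨g, h, o1, o2, a4, fun H hg hh n hn e =>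
      (v2 (by omega) n (H33.J4O.mem_norm_zp e)).imp_right fun t => t H (clo_le hg hh) hn,
    fun H hg hh c e1 e2 =>
      (w2 (by omega) c (H33.J4O.mcs.mpr e1)).imp_right fun t => t H (clo_le hg hh) e2⟩

end Cfsg.Agent.H97.JM
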