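import Cfsg.Agent.H97.JmKD
import Cfsg.Agent.H33.J4Odd1

/-!
# Checks on explicit elements
-/

set_option autoImplicit false

namespace Cfsg.Agent.H97.JM

open Subgroup Cfsg.Agent.H42 Cfsg.Agent.H46 Cfsg.Agent.H17.J4R

universe u

/-- Every code of `Bs` is the value of a word in the letters `A`. -/
noncomputable def wdB (A : List ℕ) (ws : List (List ℕ)) (Bs : List ℕ) : Bool :=
  andB (Nat.ble Bs.length ws.length)
    (allL (fun p : List ℕ × ℕ => Nat.beq (O.word (nthO A) p.1) p.2) (ws.zip Bs))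

/-- Every code of `Ks` conjugates `x` to a power. -/
noncomputable def nmB (x : ℕ) (es Ks : List ℕ) : Bool :=
  force x fun x => andB (Nat.ble Ks.length es.length)
    (allL (fun p : ℕ × ℕ => Nat.beq (mul p.2 x) (mul (O.pow x p.1) p.2)) (es.zip Ks))

/-- The codes of `Cs` commute with `y`, and `Is` lists their inverses. -/
noncomputable def invB (y : ℕ) (Cs Is : List ℕ) : Bool :=
  force y fun y => andB (Nat.beq Cs.length Is.length)
    (allL (fun p : ℕ × ℕ => andB (Nat.beq (mul p.1 y) (mul y p.1))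
      (andB (ltB p.2 (Nat.pow 2 (112 * 112))) (Nat.beq (mul p.1 p.2) one))) (Cs.zip Is))

/-- The relations of the Frobenius group, and a fixed vector. -/
noncomputable def relB (g h v p e q1 q2 a : ℕ) : Bool :=
  andB (Nat.beq (O.pow g p) one) <| andB (notB (Nat.beq g one)) <|
    andB (Nat.beq (O.pow h e) one) <| andB (notB (Nat.beq (O.pow h q1) one)) <|
      andB (notB (Nat.beq (O.pow h q2) one)) <| andB (Nat.beq (mul h g) (mul (O.pow g a) h)) <|
        andB (ltB v (Nat.pow 2 (112 * 1))) (Nat.beq (act h v) v)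

variable {G : Type u} [Group G] {ρ : G →* GL112}

theorem memC_nth {K : Subgroup G} {A : List ℕ} (h : ∀ a ∈ A, MemC ρ K a) (i : ℕ) :
    MemC ρ K (nthO A i) := by
  induction A generalizing i with
  | nil => exact ⟨1, K.one_mem, by rw [map_one]; exact CG.R_one⟩
  | cons a l ih =>
    cases i with
    | zero => exact h a List.mem_cons_self
    | succ i => exact ih (fun b hb => h b (List.mem_cons_of_mem _ hb)) i

theorem memC_wordOn {K : Subgroup G} {A : List ℕ} (h : ∀ a ∈ A, MemC ρ K a) (w : List ℕ) {a : ℕ}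
    (ha : MemC ρ K a) : MemC ρ K (O.wordOn (nthO A) w a) := by
  induction w generalizing a with
  | nil => exact ha
  | cons j l ih =>
    rw [Ops.wordOn_cons]
    obtain ⟨g, hg, r⟩ := ha
    obtain ⟨k, hk, s⟩ := memC_nth h j
    exact ih ⟨g * k, K.mul_mem hg hk, by rw [map_mul]; exact CG.R_mul r s⟩

theorem wd_spec {K : Subgroup G} {A Bs : List ℕ} {ws : List (List ℕ)} (h : ∀ a ∈ A, MemC ρ K a)
    (c : wdB A ws Bs = true) : ∀ b ∈ Bs, MemC ρ K b := by
  obtain ⟨c1, c2⟩ := andB_iff.mp c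
  intro b hb
  rw [← List.map_snd_zip (l₁ := ws) (l₂ := Bs) (ble_iff.mp c1)] at hb
  obtain ⟨p, hp, rfl⟩ := List.mem_map.mp hb
  rw [← beq_iff.mp (allL_iff.mp c2 p hp)]
  exact memC_wordOn h _ ⟨1, K.one_mem, by rw [map_one]; exact CG.R_one⟩

theorem eq_of_beq (hρ : Function.Injective ρ) {a b : ℕ} {g h : G} (r : CG.R a (ρ g))
    (s : CG.R b (ρ h)) : Nat.beq a b = true ↔ g = h :=
  (CG.eqB_iff r s).trans hρ.eq_iff

theorem R_mul' {a b : ℕ} {g h : G} (r : CG.R a (ρ g)) (s : CG.R b (ρ h)) :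
    CG.R (mul a b) (ρ (g * h)) := by rw [map_mul]; exact CG.R_mul r s

theorem R_pow' {a : ℕ} {g : G} (r : CG.R a (ρ g)) (n : ℕ) : CG.R (O.pow a n) (ρ (g ^ n)) := by
  rw [map_pow]; exact CG.R_pow r n

theorem R_one' : CG.R one (ρ 1) := by rw [map_one]; exact CG.R_one

theorem nm_spec [Finite G] (hρ : Function.Injective ρ) {x : ℕ} {X : G} (r : CG.R x (ρ X))
    {es Ks : List ℕ} (h : ∀ a ∈ Ks, MemC ρ ⊤ a) (c : nmB x es Ks = true) :
    ∀ a ∈ Ks, MemC ρ (normalizer ((zpowers X : Subgroup G) : Set G)) a := by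
  rw [nmB, force_eq] at c
  obtain ⟨c1, c2⟩ := andB_iff.mp c
  intro b hb
  obtain ⟨k, -, s⟩ := h b hb
  rw [← List.map_snd_zip (l₁ := es) (l₂ := Ks) (ble_iff.mp c1)] at hb
  obtain ⟨p, hp, rfl⟩ := List.mem_map.mp hb
  have e := (eq_of_beq hρ (R_mul' s r) (R_mul' (R_pow' r p.1) s)).mp (allL_iff.mp c2 p hp)
  refine ⟨k, H33.J4O.mem_norm_zp ?_, s⟩
  rw [e, mul_inv_cancel_right]
  exact pow_mem (mem_zpowers X) _

theorem inv_spec (hρ : Function.Injective ρ) {y : ℕ} {Y : G} (r : CG.R y (ρ Y))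
    {Cs Is : List ℕ} (h : ∀ a ∈ Cs, MemC ρ ⊤ a) (c : invB y Cs Is = true) :
    (∀ a ∈ Is, MemC ρ ⊤ a) ∧ ∀ j, ∃ k ∈ centralizer ({Y} : Set G), CG.R (nthO Cs j) (ρ k) ∧
      CG.R (nthO Is j) (ρ k⁻¹) := by
  rw [invB, force_eq] at c
  obtain ⟨c3, c4⟩ := andB_iff.mp c
  have c1 := beq_iff.mp c3
  have c2 := allL_iff.mp c4
  clear c c3 c4
  induction Cs generalizing Is with
  | nil =>
    obtain rfl : Is = [] := List.length_eq_zero_iff.mp c1.symm
    exact ⟨fun a ha => absurd ha List.not_mem_nil,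
      fun j => ⟨1, one_mem _, R_one', by rw [inv_one]; exact R_one'⟩⟩
  | cons a l ih =>
    cases Is with
    | nil => simp at c1
    | cons b m =>
      obtain ⟨i1, i2⟩ := ih (Is := m) (fun x hx => h x (List.mem_cons_of_mem _ hx))
        (by simpa using c1) (fun p hp => c2 p (List.mem_cons_of_mem _ hp))
      obtain ⟨k, -, s⟩ := h a List.mem_cons_self
      obtain ⟨d1, d2⟩ := andB_iff.mp (c2 (a, b) List.mem_cons_self)
      obtain ⟨d2, d3⟩ := andB_iff.mp d2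
      have t : CG.R b (ρ k⁻¹) := by rw [map_inv]; exact R_inv s d2 d3
      have e := (eq_of_beq hρ (R_mul' s r) (R_mul' r s)).mp d1
      refine ⟨fun x hx => ?_, fun j => ?_⟩
      · rcases List.mem_cons.mp hx with rfl | hx
        · exact ⟨_, mem_top _, t⟩
        · exact i1 x hx
      · cases j with
        | zero => exact ⟨k, H33.J4O.mcs.mpr e, s, t⟩
        | succ j => exact i2 j

theorem rel_spec (hρ : Function.Injective ρ) {g h v p e q1 q2 a : ℕ} {X Y : G}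
    (r : CG.R g (ρ X)) (s : CG.R h (ρ Y)) (hp : p.Prime) (c : relB g h v p e q1 q2 a = true) :
    orderOf X = p ∧ Y ^ e = 1 ∧ Y ^ q1 ≠ 1 ∧ Y ^ q2 ≠ 1 ∧ Y * X * Y⁻¹ ∈ zpowers X ∧
      ∃ x, VP v x ∧ ∀ z ∈ zpowers Y, ρ z • x = x := by
  simp only [relB, andB_iff, notB_iff] at c
  obtain ⟨c1, c2, c3, c4, c5, c6, c7, c8⟩ := c
  have := Fact.mk hp
  have ne : ∀ {b : ℕ} {Z : G}, CG.R b (ρ Z) → Nat.beq b one = false → Z ≠ 1 := fun t f e => by
    rw [(eq_of_beq hρ t R_one').mpr e] at f; exact absurd f (by simp)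
  refine ⟨orderOf_eq_prime ((eq_of_beq hρ (R_pow' r p) R_one').mp c1) (ne r c2),
    (eq_of_beq hρ (R_pow' s e) R_one').mp c3, ne (R_pow' s q1) c4, ne (R_pow' s q2) c5, ?_, ?_⟩
  · rw [(eq_of_beq hρ (R_mul' s r) (R_mul' (R_pow' r a) s)).mp c6, mul_inv_cancel_right]
    exact pow_mem (mem_zpowers X) _
  · obtain ⟨x, hv⟩ : ∃ x, VP v x := ⟨_, matData.P_dec (Equiv.refl _) (canon_of_lt c7)⟩
    refine ⟨x, hv, fun z hz => ?_⟩
    have h1 := matData.P_act (Equiv.refl _) h (ρ Y) v _ s hv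
    rw [beq_iff.mp c8] at h1
    have h2 := ((matData.vecs (Equiv.refl _)).key_iff h1 hv).mp rfl
    have h3 : (zpowers Y).map ρ ≤ MulAction.stabilizer GL112 x := by
      rw [MonoidHom.map_zpowers, zpowers_le]; exact h2
    exact h3 (mem_map_of_mem ρ hz)

theorem model_spec (hM : Model G) : ∃ ρ : G →* GL112, Function.Injective ρ ∧
    ∀ a ∈ [mX, mY, mYi, mT], MemC ρ ⊤ a := by
  obtain ⟨ρ, hρ, ⟨x, hx⟩, ⟨y, hy⟩, ⟨t, ht⟩⟩ := hM
  refine ⟨ρ, hρ, fun a ha => ?_⟩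
  simp only [List.mem_cons, List.not_mem_nil, or_false] at ha
  rcases ha with rfl | rfl | rfl | rfl
  · exact ⟨x, mem_top _, hx ▸ R_X⟩
  · exact ⟨y, mem_top _, hy ▸ R_Y⟩
  · exact ⟨y⁻¹, mem_top _, by rw [map_inv, hy]; exact R_Yi⟩
  · exact ⟨t, mem_top _, ht ▸ R_T⟩

theorem ord_of {Y : G} {e q1 q2 p1 p2 : ℕ} (he : 0 < e) (h1 : Y ^ e = 1) (h2 : Y ^ q1 ≠ 1)
    (h3 : Y ^ q2 ≠ 1) (e1 : e / p1 = q1) (e2 : e / p2 = q2)
    (hp : ∀ p : ℕ, p.Prime → p ∣ e → p = p1 ∨ p = p2) : orderOf Y = e :=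
  orderOf_eq_of_pow_and_pow_div_prime he h1 fun p pp pd => by
    rcases hp p pp pd with rfl | rfl
    · rwa [e1]
    · rwa [e2]

theorem allL_append {α : Type} {p : α → Bool} {l m : List α} (h1 : allL p l = true)
    (h2 : allL p m = true) : allL p (l ++ m) = true :=
  allL_iff.mpr fun a ha => (List.mem_append.mp ha).elim (allL_iff.mp h1 a) (allL_iff.mp h2 a)

end Cfsg.Agent.H97.JM
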