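import Cfsg.Agent.H97.JmDefs

/-!
# Certificates in the model of degree 112: definitions and statements
-/

set_option autoImplicit false

namespace Cfsg.Agent.H97.JM

open Subgroup Cfsg.Agent.H42 Cfsg.Agent.H46 Cfsg.Agent.H17.J4R

universe u

/-- Binary powering along a list of bits, started at `x`. -/
noncomputable def pwL (a : ℕ) (l : List Bool) : ℕ → ℕ :=
  List.rec (motive := fun _ => ℕ → ℕ) (fun x => x)
    (fun b _ ih x => force (mul x x) fun y => Bool.rec (ih y) (force (mul y a) ih) b) l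

/-- The exponent reached by `pwL`. -/
def valL : List Bool → ℕ → ℕ
  | [], n => n
  | b :: l, n => valL l (2 * n + b.toNat)

/-- The code `a` is not the identity and its power `valL l 1` is. -/
noncomputable def ordB (a : ℕ) (l : List Bool) : Bool :=
  force a fun a => andB (Nat.beq (pwL a l a) one) (notB (Nat.beq a one))

/-- Both certificate words in the letters `a :: L` have the required prime orders. -/
noncomputable def certB (L : List ℕ) (b1 b2 : List Bool) (a : ℕ) (c1 c2 : List ℕ) : Bool :=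
  andB (ordB (O.word (nthO (a :: L)) c1) b1) (ordB (O.word (nthO (a :: L)) c2) b2)

/-- An item: a word, a key and two certificate words. -/
abbrev Item : Type := List ℕ × ℕ × List ℕ × List ℕ

/-- Check of a coset representative. -/
noncomputable def cosB (ks L : List ℕ) (v : ℕ) (b1 b2 : List Bool) (it : Item) : Bool :=
  force (O.word (nthO ks) it.1) fun a =>
    andB (Nat.beq (act a v) it.2.1) (orB it.1.isEmpty (certB L b1 b2 a it.2.2.1 it.2.2.2))

/-- Repeated conjugation: each letter `j` replaces `a` by `ks j * a * ki j`. -/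
noncomputable def cjW (ks ki : List ℕ) (w : List ℕ) : ℕ → ℕ :=
  List.rec (motive := fun _ => ℕ → ℕ) (fun a => a)
    (fun j _ ih a => force (mul (mul (nthO ks j) a) (nthO ki j)) ih) w

/-- Check of a conjugate. -/
noncomputable def orbB (ks ki L : List ℕ) (u v : ℕ) (b1 b2 : List Bool) (it : Item) : Bool :=
  force (cjW ks ki it.1 u) fun a =>
    andB (Nat.beq (act a v) it.2.1) (orB it.1.isEmpty (certB L b1 b2 a it.2.2.1 it.2.2.2))

/-- The vector coded by a number. -/
def VP (v : ℕ) (x : Fin 112 → ZMod 2) : Prop := (matData.vecs (Equiv.refl _)).P v x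

variable {G : Type u} [Group G]

/-- The code `a` stands for an element of `K`. -/
def MemC (ρ : G →* GL112) (K : Subgroup G) (a : ℕ) : Prop := ∃ g ∈ K, CG.R a (ρ g)

def GoodC (ρ : G →* GL112) (K M : Subgroup G) (x : Fin 112 → ZMod 2) (p q key : ℕ) : Prop :=
  ∃ a ∈ K, VP key (ρ a • x) ∧
    (a = 1 ∨ ∀ H : Subgroup G, M ≤ H → a ∈ H → p ∣ Nat.card H ∧ q ∣ Nat.card H)

def GoodO (ρ : G →* GL112) (K M : Subgroup G) (t : G) (x : Fin 112 → ZMod 2) (p q key : ℕ) : Prop :=
  ∃ c ∈ K, VP key (ρ (c * t * c⁻¹) • x) ∧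
    (c = 1 ∨ ∀ H : Subgroup G, M ≤ H → c * t * c⁻¹ ∈ H → p ∣ Nat.card H ∧ q ∣ Nat.card H)

def KC : Prop := ∀ (G : Type u) [Group G] [Finite G] (ρ : G →* GL112), Function.Injective ρ →
  ∀ (K M : Subgroup G) (ks L : List ℕ) (v : ℕ) (x : Fin 112 → ZMod 2) (b1 b2 : List Bool),
  (∀ a ∈ ks, MemC ρ K a) → (∀ a ∈ L, MemC ρ M a) → VP v x → (valL b1 1).Prime → (valL b2 1).Prime →
  ∀ its : List Item, allL (cosB ks L v b1 b2) its = true →
    ∀ key ∈ its.map (fun it => it.2.1), GoodC ρ K M x (valL b1 1) (valL b2 1) key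

def KO : Prop := ∀ (G : Type u) [Group G] [Finite G] (ρ : G →* GL112), Function.Injective ρ →
  ∀ (K M : Subgroup G) (ks ki L : List ℕ) (u v : ℕ) (t : G) (x : Fin 112 → ZMod 2)
    (b1 b2 : List Bool),
  (∀ j, ∃ k ∈ K, CG.R (nthO ks j) (ρ k) ∧ CG.R (nthO ki j) (ρ k⁻¹)) → (∀ a ∈ L, MemC ρ M a) →
  CG.R u (ρ t) → VP v x → (valL b1 1).Prime → (valL b2 1).Prime →
  ∀ its : List Item, allL (orbB ks ki L u v b1 b2) its = true →
    ∀ key ∈ its.map (fun it => it.2.1), GoodO ρ K M t x (valL b1 1) (valL b2 1) key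

def VC : Prop := ∀ (G : Type u) [Group G] [Finite G] (ρ : G →* GL112) (K M Z : Subgroup G)
  (x : Fin 112 → ZMod 2) (p q : ℕ) (keys : List ℕ), keys.Nodup →
  (∀ key ∈ keys, GoodC ρ K M x p q key) → Z ≤ K → Z ≤ M → (∀ z ∈ Z, ρ z • x = x) →
  keys.length * Nat.card Z ≤ Nat.card K ∧ (Nat.card K ≤ keys.length * Nat.card Z →
    ∀ n ∈ K, n ∈ Z ∨ ∀ H : Subgroup G, M ≤ H → n ∈ H → p ∣ Nat.card H ∧ q ∣ Nat.card H)

def VO : Prop := ∀ (G : Type u) [Group G] [Finite G] (ρ : G →* GL112) (K M : Subgroup G) (t : G)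
  (x : Fin 112 → ZMod 2) (p q : ℕ) (keys : List ℕ), keys.Nodup →
  (∀ key ∈ keys, GoodO ρ K M t x p q key) →
  keys.length * Nat.card ↥(K ⊓ centralizer ({t} : Set G)) ≤ Nat.card K ∧
  (Nat.card K ≤ keys.length * Nat.card ↥(K ⊓ centralizer ({t} : Set G)) →
    ∀ c ∈ K, c * t = t * c ∨
      ∀ H : Subgroup G, M ≤ H → c * t * c⁻¹ ∈ H → p ∣ Nat.card H ∧ q ∣ Nat.card H)

/-- Strictly increasing lists. -/
noncomputable def incB (l : List ℕ) : ℕ → Bool :=
  List.rec (motive := fun _ => ℕ → Bool) (fun _ => true)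
    (fun a _ ih b => andB (ltB b a) (ih a)) l

def INC : Prop := ∀ (l : List ℕ) (b : ℕ), incB l b = true → l.Nodup

def N6 : Prop := ∀ (G : Type u) [Group G] [Finite G] (s : G), orderOf s = 6 →
  Nat.card (normalizer ((zpowers s : Subgroup G) : Set G)) ≤
    2 * Nat.card (centralizer ({s} : Set G))

end Cfsg.Agent.H97.JM
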