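import Cfsg.Agent.H97.JnDefs
import Cfsg.Agent.H97.JmC
import Cfsg.Agent.H97.JnTc23a
import Cfsg.Agent.H97.JnTc32a
import Cfsg.Agent.H97.JnTc32b
import Cfsg.Agent.H97.JnTc32c
import Cfsg.Agent.H97.JnTc32d

/-!
# The subgroups `PGL(2, 23)` and `L2(32) : 5` are maximal
-/

set_option autoImplicit false
set_option maxRecDepth 1000000

namespace Cfsg.Agent.H97.JM

open Subgroup Cfsg.Agent.H42 Cfsg.Agent.H46 Cfsg.Agent.H17.J4R

universe u

def tc23 : List Item := tc23_0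

theorem tc23_chk : allL (cosB K23 L23 vC23 [true, true, false, true] [false, true, false, true, true]) tc23 = true :=
  tc23_0_chk

theorem tc23_inc : incB (tc23.map fun it => it.2.1) 0 = true := by decide +kernel

theorem tc23_len : (tc23.map fun it => it.2.1).length = 55 := by decide +kernel

def tc32 : List Item := tc32_0 ++ (tc32_1 ++ (tc32_2 ++ (tc32_3 ++ (tc32_4 ++ (tc32_5 ++ (tc32_6 ++ (tc32_7 ++ (tc32_8 ++ (tc32_9 ++ (tc32_10 ++ (tc32_11 ++ (tc32_12 ++ (tc32_13 ++ (tc32_14 ++ (tc32_15)))))))))))))))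

theorem tc32_chk : allL (cosB K32 L32 vC32 [true, true, false, true] [false, false, true, false, true]) tc32 = true :=
  allL_append tc32_0_chk (allL_append tc32_1_chk (allL_append tc32_2_chk (allL_append tc32_3_chk (allL_append tc32_4_chk (allL_append tc32_5_chk (allL_append tc32_6_chk (allL_append tc32_7_chk (allL_append tc32_8_chk (allL_append tc32_9_chk (allL_append tc32_10_chk (allL_append tc32_11_chk (allL_append tc32_12_chk (allL_append tc32_13_chk (allL_append tc32_14_chk (tc32_15_chk)))))))))))))))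

theorem tc32_inc : incB (tc32.map fun it => it.2.1) 0 = true := by decide +kernel

theorem tc32_len : (tc32.map fun it => it.2.1).length = 896 := by decide +kernel

variable {G : Type u} [Group G]

theorem ne_of_beq {ρ : G →* GL112} (hρ : Function.Injective ρ) {a b : ℕ} {g h : G}
    (r : CG.R a (ρ g)) (s : CG.R b (ρ h)) (f : Nat.beq a b = false) : g ≠ h := fun e => by
  rw [(eq_of_beq hρ r s).mpr e] at f; exact absurd f (by simp)

theorem ord_prime {ρ : G →* GL112} (hρ : Function.Injective ρ) {a p : ℕ} {g : G} (hp : p.Prime)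
    (r : CG.R a (ρ g)) (h1 : Nat.beq (O.pow a p) one = true) (h2 : Nat.beq a one = false) :
    orderOf g = p :=
  have := Fact.mk hp
  orderOf_eq_prime ((eq_of_beq hρ (R_pow' r p) R_one').mp h1) (ne_of_beq hρ r R_one' h2)

theorem fix1 {ρ : G →* GL112} {a v : ℕ} {g : G} {x : Fin 112 → ZMod 2} (r : CG.R a (ρ g))
    (hv : VP v x) (h : Nat.beq (act a v) v = true) :
    g ∈ (MulAction.stabilizer GL112 x).comap ρ := by
  have h1 := matData.P_act (Equiv.refl _) a (ρ g) v _ r hv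
  rw [beq_iff.mp h] at h1
  exact ((matData.vecs (Equiv.refl _)).key_iff h1 hv).mp rfl

theorem nm1 [Finite G] {g x : G} {k : ℕ} (h : g * x = x ^ k * g) :
    g ∈ normalizer ((zpowers x : Subgroup G) : Set G) :=
  H33.J4O.mem_norm_zp (by rw [h, mul_inv_cancel_right]; exact pow_mem (mem_zpowers x) k)

theorem pgl23 [Finite G] (hBP : BP.{u}) (hQP : QP.{u}) (hNB : NB.{u}) (Γ : Ctx G) (hM : Model G)
    (h11 : ∀ y : G, orderOf y = 11 → Nat.card (centralizer ({y} : Set G)) = 31944 ∨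
      Nat.card (centralizer ({y} : Set G)) = 242) :
    ∃ M : Subgroup G, IsCoatom M ∧
      Nonempty (M ≃* GL (Fin 2) (ZMod 23) ⧸ center (GL (Fin 2) (ZMod 23))) := by
  obtain ⟨ρ, hρ, h0⟩ := model_spec hM
  have hB := wd_spec h0 B23_chk
  have hD := wd_spec hB D23_chk
  obtain ⟨X, -, rX⟩ := hB B23_0 (by simp [B23])
  obtain ⟨H, -, rH⟩ := hB B23_1 (by simp [B23])
  obtain ⟨W, -, rW⟩ := hB B23_2 (by simp [B23])
  obtain ⟨c, -, rc⟩ := hD D23_1 (by simp [D23])
  obtain ⟨b, -, rb⟩ := hD D23_2 (by simp [D23])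
  have rx : CG.R D23_0 (ρ (H ^ 2)) := beq_iff.mp r23d ▸ R_pow' rH 2
  obtain ⟨o1, a1, a2, a3, a4, x, hx, a5⟩ := rel_spec hρ rX rH (by norm_num) R23_chk
  have o2 : orderOf H = 22 := ord_of (p1 := 11) (p2 := 2) (by norm_num) a1 a2 a3 rfl rfl
    fun p pp pd => pr2 (a := 1) (b := 1) pp (by norm_num) pd
  have o3 : orderOf (H ^ 2) = 11 := by rw [orderOf_pow' _ (by norm_num), o2]; rfl
  have e1 := (eq_of_beq hρ (R_mul' rW rW) R_one').mp r23a
  have e2 := (eq_of_beq hρ (R_mul' (R_mul' rW rH) (R_mul' rW rH)) R_one').mp r23b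
  obtain ⟨i1, i2⟩ := hBP G X H W (o1 ▸ pow_orderOf_eq_one X)
    (fun e => by rw [e, orderOf_one] at o1; omega) a1
    ((eq_of_beq hρ (R_mul' rH rX) (R_mul' (R_pow' rX 5) rH)).mp r23n) e1 e2
    ((eq_of_beq hρ (R_pow' (R_mul' rW rX) 3) R_one').mp r23c)
  have mX : X ∈ closure ({X, H, W} : Set G) := subset_closure (by simp)
  have mH : H ∈ closure ({X, H, W} : Set G) := subset_closure (by simp)
  have mW : W ∈ closure ({X, H, W} : Set G) := subset_closure (by simp)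
  have hL := wd_spec (K := closure ({X, H, W} : Set G)) (A := [B23_0, B23_1, B23_2]) (fun a ha => by
    simp only [List.mem_cons, List.not_mem_nil, or_false] at ha
    rcases ha with rfl | rfl | rfl
    exacts [⟨X, mX, rX⟩, ⟨H, mH, rH⟩, ⟨W, mW, rW⟩]) L23_chk
  have hK := nm_spec hρ rx (wd_spec hB K23_chk) N23_chk
  have hG := pKC G ρ hρ _ _ K23 L23 vC23 x _ _ hK hL hx (by decide) (by decide) tc23 tc23_chk
  have wH : W * H * W⁻¹ = H⁻¹ := by
    calc W * H * W⁻¹ = W * H * (W * H) * H⁻¹ * (W * W)⁻¹ * W * W⁻¹ * (W * W⁻¹) := by group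
      _ = H⁻¹ := by rw [e1, e2]; group
  have zK : closure ({H, W} : Set G) ≤ normalizer ((zpowers (H ^ 2) : Subgroup G) : Set G) :=
    clo_le (zp_le_norm H 2 (mem_zpowers H)) (H33.J4O.mem_norm_zp (by
      rw [← conj_pow, wH, inv_pow]; exact inv_mem (mem_zpowers _)))
  have c44 : 44 ≤ Nat.card (closure ({H, W} : Set G)) := by
    have l : zpowers H ≤ closure ({H, W} : Set G) := zpowers_le.mpr (subset_closure (by simp))
    obtain ⟨k, hk⟩ := card_dvd_of_le l
    rw [Nat.card_zpowers, o2] at hk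
    have p : 0 < Nat.card (closure ({H, W} : Set G)) := Nat.card_pos
    have : k ≠ 1 := fun e => by
      have q := eq_of_le_of_card_ge l (by rw [Nat.card_zpowers, o2, hk, e])
      have : W ∈ zpowers H := q ▸ subset_closure (by simp)
      exact ne_of_beq hρ (R_mul' rW rH) (R_mul' rH rW) r23f (H33.J4O.zp_comm this rfl).symm
    rcases k with _ | _ | k <;> omega
  have nb := hNB G Γ h11 (H ^ 2) c b o3 (ord_prime hρ (by norm_num) rc r23g r23h)
    (ord_prime hρ (by norm_num) rb r23i r23j)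
    ((eq_of_beq hρ (R_mul' rc rx) (R_mul' rx rc)).mp r23k)
    ((eq_of_beq hρ (R_mul' rc rb) (R_mul' rb rc)).mp r23l)
    (ne_of_beq hρ (R_mul' rb rx) (R_mul' rx rb) r23m)
  have hV := (pVC G ρ _ _ (closure ({H, W} : Set G)) x _ _ _ (pINC _ _ tc23_inc) hG zK
    (clo_le mH mW) fun z hz => clo_le (H := (MulAction.stabilizer GL112 x).comap ρ)
      (a5 H (mem_zpowers H)) (fix1 rW hx r23e) hz).2 (by rw [tc23_len]; omega)
  exact ⟨_, hQP G Γ _ X H (H ^ 2) i2 mX mH (pow_mem mH 2) o1 o2 a4 o3 fun K hK n hn e =>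
    (hV n (H33.J4O.mem_norm_zp e)).imp (fun t => clo_le mH mW t) fun t => t K hK hn, i1⟩

theorem dvd3 {n a b c : ℕ} (ha : a ∣ n) (hb : b ∣ n) (hc : c ∣ n) (h1 : a.Coprime b)
    (h2 : (a * b).Coprime c) : a * b * c ∣ n :=
  h2.mul_dvd_of_dvd_of_dvd (h1.mul_dvd_of_dvd_of_dvd ha hb) hc

theorem l232 [Finite G] (hB32 : B32.{u}) (hEXT : EXT.{u}) (hQL : QL.{u}) (Γ : Ctx G) (hM : Model G)
    (h5 : ∀ f : G, orderOf f = 5 →
      Nat.card (normalizer ((zpowers f : Subgroup G) : Set G)) = 26880) :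
    ∃ M : Subgroup G, IsCoatom M ∧ ∃ (K : Subgroup M) (F : Type) (_ : Field F) (_ : Fintype F),
      Fintype.card F = 32 ∧ K.Normal ∧ K.index = 5 ∧
        Nonempty (K ≃* Matrix.ProjectiveSpecialLinearGroup (Fin 2) F) := by
  obtain ⟨ρ, hρ, h0⟩ := model_spec hM
  have hB := wd_spec h0 B32d_chk
  have hD := wd_spec hB D32_chk
  obtain ⟨X, -, rX⟩ := hD D32_0 (by simp [D32])
  obtain ⟨H, -, rH⟩ := hD D32_1 (by simp [D32])
  obtain ⟨W, -, rW⟩ := hD D32_2 (by simp [D32])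
  obtain ⟨f, -, rf⟩ := hD D32_3 (by simp [D32])
  have mX : X ∈ closure ({X, H, W, f} : Set G) := subset_closure (by simp)
  have mH : H ∈ closure ({X, H, W, f} : Set G) := subset_closure (by simp)
  have mW : W ∈ closure ({X, H, W, f} : Set G) := subset_closure (by simp)
  have mf : f ∈ closure ({X, H, W, f} : Set G) := subset_closure (by simp)
  have hA : ∀ a ∈ [D32_0, D32_1, D32_2, D32_3], MemC ρ (closure ({X, H, W, f} : Set G)) a :=
    fun a ha => by
      simp only [List.mem_cons, List.not_mem_nil, or_false] at ha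
      rcases ha with rfl | rfl | rfl | rfl
      exacts [⟨X, mX, rX⟩, ⟨H, mH, rH⟩, ⟨W, mW, rW⟩, ⟨f, mf, rf⟩]
  obtain ⟨x, mx, rx⟩ := wd_spec hA E32_chk E32_0 (by simp [E32])
  have two := Fact.mk Nat.prime_two
  have eX := (eq_of_beq hρ (R_mul' rX rX) R_one').mp r32a
  have eW := (eq_of_beq hρ (R_mul' rW rW) R_one').mp r32g
  have oX : orderOf X = 2 := orderOf_eq_prime (by rw [pow_two, eX]) (ne_of_beq hρ rX R_one' r32b)
  have oW : orderOf W = 2 := orderOf_eq_prime (by rw [pow_two, eW]) (ne_of_beq hρ rW R_one' r32k)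
  have oH := ord_prime hρ (by norm_num) rH r32c r32d
  have of := ord_prime hρ (by norm_num) rf r32l r32m
  have ox := ord_prime hρ (by norm_num) rx r32q r32r
  have oy := ord_prime hρ (by norm_num) (R_mul' rW rX) r32i r32j
  have fX := (eq_of_beq hρ (R_mul' rf rX) (R_mul' rX rf)).mp r32n
  have fH := (eq_of_beq hρ (R_mul' rf rH) (R_mul' (R_pow' rH 2) rf)).mp r32o
  have fW := (eq_of_beq hρ (R_mul' rf rW) (R_mul' rW rf)).mp r32p
  have cm : ∀ i j : ℕ, Nat.beq (mul (mul D32_0 (mul (O.pow D32_1 i) D32_0)) (O.pow D32_1 j))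
      (mul (mul (mul (O.pow D32_1 i) D32_0) (O.pow D32_1 j)) D32_0) = true →
      X * (H ^ i * X) * H ^ j = H ^ i * X * H ^ j * X := fun i j e =>
    (eq_of_beq hρ (R_mul' (R_mul' rX (R_mul' (R_pow' rH i) rX)) (R_pow' rH j))
      (R_mul' (R_mul' (R_mul' (R_pow' rH i) rX) (R_pow' rH j)) rX)).mp e
  obtain ⟨⟨F, i1, i2, i3, ⟨i4⟩⟩, i5⟩ := hB32 G X H W eX (ne_of_beq hρ rX R_one' r32b)
    (oH ▸ pow_orderOf_eq_one H)
    (fun i hi => by
      simp only [List.mem_cons, List.not_mem_nil, or_false] at hi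
      rcases hi with rfl | rfl | rfl | rfl
      exacts [cm 1 30 r32e1, cm 2 29 r32e2, cm 3 28 r32e3, cm 4 27 r32e4])
    ((eq_of_beq hρ (R_mul' (R_mul' rX (R_mul' (R_pow' rH 2) rX)) (R_pow' rH 29))
      (R_mul' (R_mul' (R_pow' rH 5) rX) (R_pow' rH 26))).mp r32f) eW
    ((eq_of_beq hρ (R_mul' (R_mul' rW rH) (R_mul' rW rH)) R_one').mp r32h)
    (oy ▸ pow_orderOf_eq_one _)
  obtain ⟨j1, K, j2, j3, ⟨j4⟩⟩ := hEXT G X H W f i5 of fX fH fW
  obtain ⟨v, hv⟩ : ∃ v, VP vC32 v := ⟨_, matData.P_dec (Equiv.refl _) (canon_of_lt r32v)⟩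
  have hK := nm_spec hρ rf (wd_spec hB K32_chk) N32_chk
  have hG := pKC G ρ hρ _ _ K32 L32 vC32 v _ _ hK (wd_spec hA L32_chk) hv (by decide) (by decide)
    tc32 tc32_chk
  have cl : ∀ {S : Subgroup G}, f ∈ S → X ∈ S → W ∈ S → closure ({f, X, W} : Set G) ≤ S :=
    fun h1 h2 h3 => by
      rw [closure_le]
      rintro y (rfl | rfl | rfl)
      exacts [h1, h2, h3]
  have zf : f ∈ closure ({f, X, W} : Set G) := subset_closure (by simp)
  have zX : X ∈ closure ({f, X, W} : Set G) := subset_closure (by simp)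
  have zW : W ∈ closure ({f, X, W} : Set G) := subset_closure (by simp)
  have c30 : 30 ≤ Nat.card (closure ({f, X, W} : Set G)) := Nat.le_of_dvd Nat.card_pos
    (dvd3 (a := 5) (b := 2) (c := 3) (of ▸ H33.J4O.ord_dvd zf) (oX ▸ H33.J4O.ord_dvd zX)
      (oy ▸ H33.J4O.ord_dvd (mul_mem zW zX)) (by norm_num) (by norm_num))
  have hV := (pVC G ρ _ _ (closure ({f, X, W} : Set G)) v _ _ _ (pINC _ _ tc32_inc) hG
    (cl (nm1 (k := 1) (by rw [pow_one])) (nm1 (k := 1) (by rw [pow_one, fX]))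
      (nm1 (k := 1) (by rw [pow_one, fW]))) (cl mf mX mW)
    fun z hz => cl (S := (MulAction.stabilizer GL112 v).comap ρ) (fix1 rf hv r32w)
      (fix1 rX hv r32x) (fix1 rW hv r32y) hz).2 (by rw [tc32_len, h5 f of]; omega)
  have d31 : 310 ∣ Nat.card ↥(closure ({X, H, W, f} : Set G) ⊓
      normalizer ((zpowers H : Subgroup G) : Set G)) :=
    dvd3 (a := 31) (b := 2) (c := 5)
      (oH ▸ H33.J4O.ord_dvd (mem_inf.mpr ⟨mH, nm1 (k := 1) (by rw [pow_one])⟩))
      (oW ▸ H33.J4O.ord_dvd (mem_inf.mpr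
        ⟨mW, nm1 ((eq_of_beq hρ (R_mul' rW rH) (R_mul' (R_pow' rH 30) rW)).mp r32z)⟩))
      (of ▸ H33.J4O.ord_dvd (mem_inf.mpr ⟨mf, nm1 fH⟩)) (by norm_num) (by norm_num)
  have d11 : 330 ∣ Nat.card ↥(closure ({X, H, W, f} : Set G) ⊓
      normalizer ((zpowers x : Subgroup G) : Set G)) :=
    (show Nat.Coprime (11 * 3 * 2) 5 by norm_num).mul_dvd_of_dvd_of_dvd
      (dvd3 (ox ▸ H33.J4O.ord_dvd (mem_inf.mpr ⟨mx, nm1 (k := 1) (by rw [pow_one])⟩))
        (oy ▸ H33.J4O.ord_dvd (mem_inf.mpr ⟨mul_mem mW mX, nm1 (k := 1) (by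
          rw [pow_one]
          exact (eq_of_beq hρ (R_mul' (R_mul' rW rX) rx) (R_mul' rx (R_mul' rW rX))).mp r32s)⟩))
        (oX ▸ H33.J4O.ord_dvd (mem_inf.mpr
          ⟨mX, nm1 ((eq_of_beq hρ (R_mul' rX rx) (R_mul' (R_pow' rx 10) rX)).mp r32t)⟩))
        (by norm_num) (by norm_num))
      (of ▸ H33.J4O.ord_dvd (mem_inf.mpr
        ⟨mf, nm1 ((eq_of_beq hρ (R_mul' rf rx) (R_mul' (R_pow' rx 9) rf)).mp r32u)⟩))
  exact ⟨_, hQL G Γ _ H f x j1 mH mf mx oH of ox d31 d11 fun S hS n hn e =>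
    (hV n (H33.J4O.mem_norm_zp e)).imp (fun t => cl mf mX mW t) fun t => t S hS hn,
    K, F, i1, i2, i3, j2, j3, ⟨j4.trans i4⟩⟩

end Cfsg.Agent.H97.JM
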