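/-
Matrix lemmas for the subgroup `A'` of an extension `2 ^ 10 . L₅(2)`.
-/
import Cfsg.Agent.H17.LPDefs

set_option autoImplicit false

namespace Cfsg.Agent.H97.LpAp

open Matrix Cfsg.Agent.H17.LP

abbrev V := Fin 5 → F
abbrev M4 := Matrix (Fin 4) (Fin 4) F

def wd (u v : V) : M5 := vecMulVec u v + vecMulVec v u
def e1 : V := ![1, 0, 0, 0, 0]
def e2 : V := ![0, 1, 0, 0, 0]
def e5 : V := ![0, 0, 0, 0, 1]
def tm (p f : V) : M5 := 1 + vecMulVec p f
def rr (a : M5) : V := a *ᵥ e5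

theorem add_self_V (v : V) : v + v = 0 := by ext i; exact two_F _

theorem dot_e5 (v : V) : e5 ⬝ᵥ v = v 4 := by simp [e5, dotProduct, Fin.sum_univ_five]

theorem dot_e5' (v : V) : v ⬝ᵥ e5 = v 4 := by rw [dotProduct_comm, dot_e5]

theorem rr_apply (a : M5) (i : Fin 5) : rr a i = a i 4 := dot_e5' _

theorem alt_wd (u v : V) : Alt (wd u v) :=
  ⟨by rw [wd, transpose_add, transpose_vecMulVec, transpose_vecMulVec, add_comm], fun i => by
    simp only [wd, Matrix.add_apply, vecMulVec_apply]; rw [mul_comm]; exact two_F _⟩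

theorem wd_comm (u v : V) : wd u v = wd v u := add_comm _ _

theorem wd_add (u v w : V) : wd u (v + w) = wd u v + wd u w := by
  simp only [wd, add_vecMulVec, vecMulVec_add]; abel

theorem add_wd (u v w : V) : wd (u + v) w = wd u w + wd v w := by
  simp only [wd, add_vecMulVec, vecMulVec_add]; abel

theorem wd_self (u : V) : wd u u = 0 := add_self_M _

theorem wd_zero (u : V) : wd u 0 = 0 := by simp [wd]

theorem zero_wd (u : V) : wd 0 u = 0 := by simp [wd]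

theorem wd_smul (u v : V) (c : F) : wd u (c • v) = c • wd u v := by
  simp only [wd, smul_vecMulVec, vecMulVec_smul, smul_add]

theorem rr_add (a b : M5) : rr (a + b) = rr a + rr b := add_mulVec _ _ _

theorem rr_wd (u v : V) : rr (wd u v) = v 4 • u + u 4 • v := by
  ext i; simp [rr_apply, wd, vecMulVec_apply, mul_comm]

theorem rr_four {a : M5} (ha : Alt a) : rr a 4 = 0 := by rw [rr_apply, ha.2]

theorem act_wd (g : M5) (u v : V) : g * wd u v * gᵀ = wd (g *ᵥ u) (g *ᵥ v) := by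
  simp only [wd, Matrix.mul_add, Matrix.add_mul, mul_vecMulVec, vecMulVec_mul, vecMul_transpose]

theorem tm_sq {p f : V} (h : f ⬝ᵥ p = 0) : tm p f * tm p f = 1 := by
  simp only [tm, Matrix.mul_add, Matrix.add_mul, Matrix.one_mul, Matrix.mul_one,
    vecMulVec_mul_vecMulVec, h, zero_smul, vecMulVec_zero, add_zero]
  rw [add_assoc, add_self_M, add_zero]

theorem F_sq : ∀ x : F, x * x = 1 → x = 1 := by decide

theorem tm_det {p f : V} (h : f ⬝ᵥ p = 0) : det (tm p f) = 1 :=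
  F_sq _ (by rw [← det_mul, tm_sq h, det_one])

theorem tm_mulVec (p f u : V) : tm p f *ᵥ u = u + (f ⬝ᵥ u) • p := by
  ext i; simp [tm, add_mulVec, vecMulVec_mulVec, mul_comm]

theorem alt_quad {a : M5} (ha : Alt a) (f : V) : f ⬝ᵥ (a *ᵥ f) = 0 := by
  have h := ha.symm
  simp only [dotProduct, mulVec, Fin.sum_univ_five, ha.2, h 1 0, h 2 0, h 3 0, h 4 0, h 2 1,
    h 3 1, h 4 1, h 3 2, h 4 2, h 4 3]
  have two : (2 : F) = 0 := rfl
  ring_nf
  simp [two]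

theorem tm_act {a : M5} (ha : Alt a) (p f : V) :
    tm p f * a * (tm p f)ᵀ = a + wd p (a *ᵥ f) := by
  have e : f ᵥ* a = a *ᵥ f := by rw [← mulVec_transpose, ha.1]
  simp only [tm, wd, transpose_add, transpose_one, transpose_vecMulVec, Matrix.mul_add,
    Matrix.add_mul, Matrix.one_mul, Matrix.mul_one, vecMulVec_mul, mul_vecMulVec, e,
    add_mulVec, vecMulVec_mulVec]
  rw [dotProduct_comm, alt_quad ha]
  simp [add_assoc]

theorem tm_mul {u v : V} (hv : v 4 = 0) : tm u e5 * tm v e5 = tm (u + v) e5 := by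
  simp only [tm, Matrix.mul_add, Matrix.add_mul, Matrix.one_mul, Matrix.mul_one,
    vecMulVec_mul_vecMulVec, dot_e5, hv, zero_smul, vecMulVec_zero, add_zero, add_vecMulVec]
  abel

theorem tm_zero (f : V) : tm 0 f = 1 := by simp [tm]

theorem tm_apply (v : V) (i j : Fin 5) : tm v e5 i j = (1 : M5) i j + v i * e5 j := rfl

/-- The last row is trivial. -/
def Rw (g : M5) : Prop := e5 ᵥ* g = e5

theorem Rw.conj {g : M5} (hg : Rw g) (v : V) : g * tm v e5 = tm (g *ᵥ v) e5 * g := by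
  simp only [tm, Matrix.mul_add, Matrix.add_mul, Matrix.one_mul, Matrix.mul_one, mul_vecMulVec,
    vecMulVec_mul]
  rw [hg]

theorem Rw.four {g : M5} (hg : Rw g) (v : V) : (g *ᵥ v) 4 = v 4 := by
  rw [← dot_e5 (g *ᵥ v), dotProduct_mulVec, hg, dot_e5]

theorem Rw.rr {g : M5} (hg : Rw g) (a : M5) : rr (g * a * gᵀ) = g *ᵥ rr a := by
  rw [LpAp.rr, ← mulVec_mulVec, mulVec_transpose, hg, ← mulVec_mulVec]; rfl

theorem rw_tm {p : V} (hp : p 4 = 0) (f : V) : Rw (tm p f) := by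
  rw [Rw, tm, vecMul_add, vecMul_one, vecMul_vecMulVec, dot_e5, hp, zero_smul, add_zero]

theorem rw_iff (g : M5) : Rw g ↔ ∀ k, g 4 k = (1 : M5) 4 k := by
  have e : ∀ k, (e5 ᵥ* g) k = g 4 k := fun k => by
    simp [e5, vecMul, dotProduct, Fin.sum_univ_five]
  have e' : ∀ k, e5 k = (1 : M5) 4 k := by decide
  exact ⟨fun h k => by rw [← e, h, e'], fun h => funext fun k => by rw [e, h, e']⟩

theorem wd_eq_zero {u y : V} (h : wd u y = 0) (hu : u ≠ 0) : ∃ e : F, y = e • u := by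
  obtain ⟨i, hi⟩ := Function.ne_iff.1 hu
  have one : ∀ x : F, x ≠ 0 → x = 1 := by decide
  have neg : ∀ x y : F, x + y = 0 → x = y := by decide
  refine ⟨y i, funext fun j => ?_⟩
  have := congrFun (congrFun h i) j
  simp only [wd, Matrix.add_apply, vecMulVec_apply, Matrix.zero_apply, one _ hi, one_mul] at this
  simpa using neg _ _ this

theorem ex_f : ∀ a b c d : F, ![a, b, c, d, 0] = (0 : V) ∨ ![a, b, c, d, 0] = e1 ∨
    ∃ x y z : F, (![1, x, y, z, 0] : V) ⬝ᵥ ![a, b, c, d, 0] = 1 := by decide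

theorem vec_eq {v : V} (hv : v 4 = 0) : v = ![v 0, v 1, v 2, v 3, 0] := by
  ext i; fin_cases i <;> simp [hv]

/-- Step A. -/
theorem stepA : ∀ f0 f1 f2 f3 y0 y1 y2 y3 : F, (![y0, y1, y2, y3, 0] : V) = 0 ∨
    ∃ p0 p1 p2 p3 q0 q1 q2 q3 : F, f0 * p0 + f1 * p1 + f2 * p2 + f3 * p3 = 0 ∧
      f0 * q0 + f1 * q1 + f2 * q2 + f3 * q3 = 0 ∧
      wd ![p0, p1, p2, p3, 0] ![y0, y1, y2, y3, 0] ≠ 0 ∧
      wd ![q0, q1, q2, q3, 0] ![y0, y1, y2, y3, 0] ≠ 0 ∧
      wd ![p0, p1, p2, p3, 0] ![y0, y1, y2, y3, 0] ≠ wd ![q0, q1, q2, q3, 0] ![y0, y1, y2, y3, 0] := by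
  decide +kernel

set_option synthInstance.maxSize 4000 in
set_option synthInstance.maxHeartbeats 400000 in
theorem stepB : ∀ u0 u1 v0 v1 v2 v3 a b c d e g : F,
    (u0 * v1 + u1 * v0 = 0 ∧ u0 * v2 = 0 ∧ u0 * v3 = 0 ∧ u1 * v2 = 0 ∧ u1 * v3 = 0) ∨
    (a = 0 ∧ b = 0 ∧ c = 0 ∧ d = 0 ∧ e = 0 ∧ g = 0) ∨
    (a = u0 * v1 + u1 * v0 ∧ b = u0 * v2 ∧ c = u0 * v3 ∧ d = u1 * v2 ∧ e = u1 * v3 ∧ g = 0) ∨
    ∃ f0 f1 f2 f3 : F, f0 * u0 + f1 * u1 = 0 ∧ f0 * v0 + f1 * v1 + f2 * v2 + f3 * v3 = 0 ∧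
      ¬ (a * f1 + b * f2 + c * f3 = 0 ∧ a * f0 + d * f2 + e * f3 = 0 ∧
        b * f0 + d * f1 + g * f3 = 0 ∧ c * f0 + e * f1 + g * f2 = 0) := by
  decide +kernel

/-- An alternating form moved by the stabiliser of `u, v` only by `u ∧ v`. -/
theorem fix_wd {u v : V} (hu2 : u 2 = 0) (hu3 : u 3 = 0) (hu4 : u 4 = 0) (hv : v 4 = 0)
    (huv : wd u v ≠ 0) {c : M5} (hc : Alt c) (hr : rr c = 0)
    (H : ∀ p f : V, p 4 = 0 → f ⬝ᵥ p = 0 → f ⬝ᵥ u = 0 → f ⬝ᵥ v = 0 →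
      wd p (c *ᵥ f) = 0 ∨ wd p (c *ᵥ f) = wd u v) : c = 0 ∨ c = wd u v := by
  have s := hc.symm
  have r4 : ∀ i, c i 4 = 0 := fun i => (rr_apply c i).symm.trans (congrFun hr i)
  have r4' : ∀ i, c 4 i = 0 := fun i => by rw [s, r4]
  rcases stepB (u 0) (u 1) (v 0) (v 1) (v 2) (v 3) (c 0 1) (c 0 2) (c 0 3) (c 1 2) (c 1 3) (c 2 3) with
    ⟨h1, h2, h3, h4, h5⟩ | ⟨h1, h2, h3, h4, h5, h6⟩ | ⟨h1, h2, h3, h4, h5, h6⟩ |
    ⟨f0, f1, f2, f3, k1, k2, k3⟩
  · exfalso; apply huv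
    have t := two_F
    ext i j
    fin_cases i <;> fin_cases j <;>
      simp [wd, vecMulVec_apply, hu2, hu3, hu4, hv, h2, h3, h4, h5, mul_comm, t] <;>
      linear_combination h1
  · left
    ext i j
    fin_cases i <;> fin_cases j <;>
      simp [hc.2, r4, r4', s 1 0, s 2 0, s 3 0, s 2 1, s 3 1, s 3 2, h1, h2, h3, h4, h5, h6]
  · right
    have t := two_F
    ext i j
    fin_cases i <;> fin_cases j <;>
      simp [hc.2, r4, r4', s 1 0, s 2 0, s 3 0, s 2 1, s 3 1, s 3 2, h1, h2, h3, h4, h5, h6, wd,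
        vecMulVec_apply, hu2, hu3, hu4, hv, mul_comm, t, add_comm] <;> ring
  · exfalso; apply k3
    set f : V := ![f0, f1, f2, f3, 0] with hf
    have fu : f ⬝ᵥ u = 0 := by simp [hf, dotProduct, Fin.sum_univ_five, hu2, hu3, k1]
    have fv : f ⬝ᵥ v = 0 := by simp [hf, dotProduct, Fin.sum_univ_five, k2]
    have y4 : (c *ᵥ f) 4 = 0 := by simp [mulVec, dotProduct, r4']
    have y0 : c *ᵥ f = 0 := by
      rcases stepA f0 f1 f2 f3 ((c *ᵥ f) 0) ((c *ᵥ f) 1) ((c *ᵥ f) 2) ((c *ᵥ f) 3) with h | 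
        ⟨p0, p1, p2, p3, q0, q1, q2, q3, a1, a2, a3, a4, a5⟩
      · rw [vec_eq y4]; exact h
      · rw [← vec_eq y4] at a3 a4 a5
        have b1 := H ![p0, p1, p2, p3, 0] f rfl (by simp [hf, dotProduct, Fin.sum_univ_five, a1]) fu fv
        have b2 := H ![q0, q1, q2, q3, 0] f rfl (by simp [hf, dotProduct, Fin.sum_univ_five, a2]) fu fv
        exact absurd ((b1.resolve_left a3).trans (b2.resolve_left a4).symm) a5
    have z := fun i => congrFun y0 i
    have z0 := z 0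
    have z1 := z 1
    have z2 := z 2
    have z3 := z 3
    simp only [mulVec, dotProduct, Fin.sum_univ_five, hf, hc.2, r4, s 1 0, s 2 0, s 3 0, s 2 1, s 3 1,
      s 3 2, Pi.zero_apply, zero_mul, add_zero, zero_add, cons_val_zero, cons_val_one, cons_val] at z0 z1 z2 z3
    exact ⟨z0, z1, z2, z3⟩

/-- The block embedding. -/
def emb (M : M4) : M5 :=
  !![M 0 0, M 0 1, M 0 2, M 0 3, 0; M 1 0, M 1 1, M 1 2, M 1 3, 0; M 2 0, M 2 1, M 2 2, M 2 3, 0;
    M 3 0, M 3 1, M 3 2, M 3 3, 0; 0, 0, 0, 0, 1]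

theorem emb_eq (A : M4) : emb A = reindex finSumFinEquiv finSumFinEquiv
    (fromBlocks A 0 0 (1 : Matrix (Fin 1) (Fin 1) F)) := by
  ext i j; fin_cases i <;> fin_cases j <;> rfl

theorem emb_mul (A B : M4) : emb (A * B) = emb A * emb B := by
  simp only [emb_eq, reindex_apply, submatrix_mul_equiv, fromBlocks_multiply]
  simp

theorem det_emb (A : M4) : det (emb A) = det A := by
  rw [emb_eq, det_reindex_self, det_fromBlocks_zero₂₁, det_one, mul_one]

theorem rw_emb (A : M4) : Rw (emb A) := (rw_iff _).2 fun k => by fin_cases k <;> rfl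

theorem rw_split {g : M5} (hg : Rw g) : ∃ (w : V) (M : M4), w 4 = 0 ∧ g = tm w e5 * emb M := by
  have h := (rw_iff g).1 hg
  refine ⟨![g 0 4, g 1 4, g 2 4, g 3 4, 0], g.submatrix Fin.castSucc Fin.castSucc, rfl, ?_⟩
  ext i j
  fin_cases i <;> fin_cases j <;>
    simp [tm, emb, e5, mul_apply, Fin.sum_univ_five, one_apply] <;>
    first | rfl | exact h _

theorem tv_sq : ∀ i j : Fin 4, i ≠ j → ∃ k : Fin 4,
    (1 + single i k 1 : M4) * (1 + single k j 1) * ((1 + single i k 1) * (1 + single k j 1)) =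
      1 + single i j 1 := by decide +kernel

theorem x15 : (X 1 5).1 = tm e1 e5 := by decide +kernel

end Cfsg.Agent.H97.LpAp
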