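/-
The subgroup `A'` of an extension `2 ^ 10 . L₅(2)`.
-/
import Cfsg.Agent.H97.LpAp5a

set_option autoImplicit false

namespace Cfsg.Agent.H97.LpAp

open Matrix Cfsg.Agent.H17.LP

universe u

variable {N : Type u} [Group N] {ι : M5 → N} {π : N →* SL5}

theorem i_zero (h : Ex ι π) : ι 0 = 1 := by
  have := h.add 0 0 Alt.zero Alt.zero
  rw [add_zero] at this
  exact left_eq_mul.1 this

theorem i_sq (h : Ex ι π) {a : M5} (ha : Alt a) : ι a * ι a = 1 := by
  rw [← h.add a a ha ha, add_self_M, i_zero h]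

theorem i_inj (h : Ex ι π) {a b : M5} (ha : Alt a) (hb : Alt b) (e : ι a = ι b) : a = b := by
  have := h.inj (a + b) (ha.add hb) (by rw [h.add a b ha hb, e, i_sq h hb])
  rw [← add_zero a, ← add_self_M b, ← add_assoc, this, zero_add]

theorem p_i (h : Ex ι π) {a : M5} (ha : Alt a) : π (ι a) = 1 := (h.ker _).2 ⟨a, ha, rfl⟩

theorem diff (h : Ex ι π) {n m : N} (e : (π n).1 = (π m).1) : ∃ a, Alt a ∧ m = n * ι a := by
  obtain ⟨a, ha, e'⟩ := (h.ker (n⁻¹ * m)).1 (by rw [map_mul, map_inv, Subtype.ext e, inv_mul_cancel])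
  exact ⟨a, ha, by rw [← e']; group⟩

/-- `b` lies over the transvection `x_v`. -/
def Ov (π : N →* SL5) (b : N) (v : V) : Prop := v 4 = 0 ∧ (π b).1 = tm v e5

theorem Ov.one : Ov π 1 0 := ⟨rfl, by rw [map_one, tm_zero]; rfl⟩

theorem Ov.mul {b c : N} {u v : V} (hb : Ov π b u) (hc : Ov π c v) : Ov π (b * c) (u + v) :=
  ⟨by rw [Pi.add_apply, hb.1, hc.1, add_zero], by rw [map_mul, coe_mul', hb.2, hc.2, tm_mul hc.1]⟩

theorem Ov.inv {b : N} {v : V} (hb : Ov π b v) : Ov π b⁻¹ v := by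
  refine ⟨hb.1, ?_⟩
  have e : π b * π b = 1 := Subtype.ext (by
    rw [coe_mul', hb.2, tm_mul hb.1, add_self_V, tm_zero]; rfl)
  rw [map_inv, inv_eq_of_mul_eq_one_right e, hb.2]

theorem ov_i (h : Ex ι π) {a : M5} (ha : Alt a) : Ov π (ι a) 0 :=
  ⟨rfl, by rw [p_i h ha, tm_zero]; rfl⟩

theorem Ov.mul_i (h : Ex ι π) {b : N} {v : V} (hb : Ov π b v) {a : M5} (ha : Alt a) :
    Ov π (b * ι a) v := by simpa using hb.mul (ov_i h ha)

theorem Ov.conj {n b : N} {v : V} (hn : Rw (π n).1) (hb : Ov π b v) :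
    Ov π (n * b * n⁻¹) ((π n).1 *ᵥ v) := by
  refine ⟨by rw [hn.four, hb.1], ?_⟩
  rw [map_mul, map_mul, coe_mul', coe_mul', hb.2, hn.conj, Matrix.mul_assoc, ← coe_mul', ← map_mul,
    mul_inv_cancel, map_one]
  exact Matrix.mul_one _

theorem Ov.act (h : Ex ι π) {b : N} {v : V} (hb : Ov π b v) {a : M5} (ha : Alt a) :
    b * ι a * b⁻¹ = ι (a + wd v (rr a)) := by
  rw [h.act b a ha, hb.2, tm_act ha]; rfl

theorem Ov.sq (h : Ex ι π) {b : N} {v : V} (hb : Ov π b v) {c a : M5} (hc : Alt c) (ha : Alt a)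
    (e : b * b = ι c) : b * ι a * (b * ι a) = ι (c + wd v (rr a)) := by
  have w := alt_wd v (rr a)
  have : b * ι a * (b * ι a) = b * ι a * b⁻¹ * (b * b) * ι a := by group
  rw [this, hb.act h ha, e, ← h.add _ _ (ha.add w) hc, ← h.add _ _ ((ha.add w).add hc) ha]
  congr 1
  rw [show a + wd v (rr a) + c + a = (a + a) + (c + wd v (rr a)) by abel, add_self_M, zero_add]

/-- The product of two corrected elements. -/
theorem Ov.prod (h : Ex ι π) {b c : N} {v : V} (hc : Ov π c v) {a a' : M5} (ha : Alt a)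
    (ha' : Alt a') : ∃ d, Alt d ∧ rr d = rr a + rr a' ∧ b * ι a * (c * ι a') = b * c * ι d := by
  have w := alt_wd v (rr a)
  refine ⟨a + wd v (rr a) + a', (ha.add w).add ha', ?_, ?_⟩
  · rw [rr_add, rr_add, rr_wd, rr_four ha, hc.1, zero_smul, zero_smul, add_zero, add_zero]
  · rw [h.add _ _ (ha.add w) ha', ← hc.inv.act h ha]; group

theorem Ov.lifts (h : Ex ι π) {b c : N} {v : V} (hb : Ov π b v) (hc : Ov π c v) (hv : v ≠ 0)
    (e1 : b * b = 1) (e2 : c * c = 1) : ∃ a e, Alt a ∧ rr a = (e : F) • v ∧ c = b * ι a := by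
  obtain ⟨a, ha, rfl⟩ := diff h (hb.2.trans hc.2.symm)
  rw [hb.sq h Alt.zero ha (e1.trans (i_zero h).symm), zero_add] at e2
  obtain ⟨e, he⟩ := wd_eq_zero (h.inj _ (alt_wd _ _) e2) hv
  exact ⟨a, e, ha, he, rfl⟩

theorem wd_sum (u v : V) (e e' : F) : wd (u + v) (e • u + e' • v) = (e + e') • wd u v := by
  rw [wd_add, wd_smul, wd_smul, add_wd, add_wd, wd_self, wd_self, wd_comm v u, zero_add, add_zero,
    add_smul]

theorem ex_lift (h : Ex ι π) {g : M5} (hg : det g = 1) : ∃ n, (π n).1 = g := by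
  obtain ⟨n, hn⟩ := h.surj ⟨g, hg⟩
  exact ⟨n, by rw [hn]⟩

theorem F_cases : ∀ e : F, e = 0 ∨ e = 1 := by decide

/-- The commutator of two involutions. -/
theorem cm (h : Ex ι π) {b c : N} {u v : V} (hb : Ov π b u) (hc : Ov π c v) (e1 : b * b = 1)
    (e2 : c * c = 1) (hu2 : u 2 = 0) (hu3 : u 3 = 0) (huv : wd u v ≠ 0) :
    b * c * (b * c) = 1 ∨ b * c * (b * c) = ι (wd u v) := by
  have hu : u ≠ 0 := fun z => huv (by rw [z, zero_wd])
  have hv : v ≠ 0 := fun z => huv (by rw [z, wd_zero])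
  have hbc := hb.mul hc
  obtain ⟨d, hd, ed⟩ := (h.ker (b * c * (b * c))).1 (Subtype.ext (by
    rw [(hbc.mul hbc).2, add_self_V, tm_zero]; rfl))
  have bi : b⁻¹ = b := inv_eq_of_mul_eq_one_right e1
  have ci : c⁻¹ = c := inv_eq_of_mul_eq_one_right e2
  have di : (ι d)⁻¹ = ι d := inv_eq_of_mul_eq_one_right (i_sq h hd)
  have fix : ∀ {x : N} {w : V}, Ov π x w → x * ι d * x⁻¹ = ι d → wd w (rr d) = 0 := fun hx e => by
    rw [hx.act h hd] at e
    exact add_eq_left.1 (i_inj h (hd.add (alt_wd _ _)) hd e)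
  have f1 : wd u (rr d) = 0 := fix hb (by
    rw [← di]
    conv_lhs => rw [di]
    rw [← ed, _root_.mul_inv_rev, _root_.mul_inv_rev, bi, ci]
    calc b * (b * c * (b * c)) * b = b * b * (c * b * (c * b)) := by group
      _ = _ := by rw [e1, one_mul])
  have f2 : wd (u + v) (rr d) = 0 := fix hbc (by rw [← ed]; group)
  rw [add_wd, f1, zero_add] at f2
  have r0 : rr d = 0 := by
    obtain ⟨x, hx⟩ := wd_eq_zero f1 hu
    rcases F_cases x with rfl | rfl
    · rw [hx, zero_smul]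
    · rw [hx, one_smul, wd_comm] at f2; exact absurd f2 huv
  have key := fix_wd hu2 hu3 hb.1 hc.1 huv hd r0 fun p f hp h1 h2 h3 => by
    obtain ⟨n, hn⟩ := ex_lift h (tm_det h1)
    have rn : Rw (π n).1 := hn ▸ rw_tm hp f
    have ob := hb.conj rn
    have oc := hc.conj rn
    rw [hn, tm_mulVec, h2, zero_smul, add_zero] at ob
    rw [hn, tm_mulVec, h3, zero_smul, add_zero] at oc
    obtain ⟨a, e, ha, ra, ea⟩ := hb.lifts h ob hu e1 (by
      calc _ = n * (b * b) * n⁻¹ := by group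
        _ = 1 := by rw [e1]; group)
    obtain ⟨a', e', ha', ra', ea'⟩ := hc.lifts h oc hv e2 (by
      calc _ = n * (c * c) * n⁻¹ := by group
        _ = 1 := by rw [e2]; group)
    obtain ⟨k, hk, rk, ek⟩ := hc.prod h (b := b) ha ha'
    have q := hbc.sq h hd hk ed
    rw [← ek, ← ea, ← ea', show n * b * n⁻¹ * (n * c * n⁻¹) * (n * b * n⁻¹ * (n * c * n⁻¹)) =
      n * (b * c * (b * c)) * n⁻¹ by group, ed, h.act n d hd, hn, tm_act hd, rk, ra, ra'] at q
    have q' := add_left_cancel (i_inj h (hd.add (alt_wd _ _)) (hd.add (alt_wd _ _)) q)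
    rw [wd_sum] at q'
    rcases F_cases (e + e') with z | z <;> rw [z] at q'
    · left; rw [q', zero_smul]
    · right; rw [q', one_smul]
  rcases key with rfl | rfl
  · left; rw [ed, i_zero h]
  · right; exact ed

theorem rr_z {v : V} (hv : v 4 = 0) : rr (wd v e5) = v := by
  rw [rr_wd, hv, zero_smul, add_zero]; exact one_smul F v

theorem comm_of {b c : N} (e1 : b * b = 1) (e2 : c * c = 1) (e : b * c * (b * c) = 1) :
    c * b = b * c := by
  rw [← inv_eq_of_mul_eq_one_right e, _root_.mul_inv_rev, inv_eq_of_mul_eq_one_right e1,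
    inv_eq_of_mul_eq_one_right e2]

theorem adj (h : Ex ι π) {b c : N} {u v : V} (hb : Ov π b u) (hc : Ov π c v) (e1 : b * b = 1)
    (e2 : c * c = 1) (hu2 : u 2 = 0) (hu3 : u 3 = 0) (huv : wd u v ≠ 0) :
    ∃ c', Ov π c' v ∧ c' * c' = 1 ∧ c' * b = b * c' := by
  rcases cm h hb hc e1 e2 hu2 hu3 huv with e | e
  · exact ⟨c, hc, e2, comm_of e1 e2 e⟩
  · have w := alt_wd v e5
    have s : c * ι (wd v e5) * (c * ι (wd v e5)) = 1 := by
      rw [hc.sq h Alt.zero w (e2.trans (i_zero h).symm), rr_z hc.1, wd_self, add_zero, i_zero h]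
    refine ⟨c * ι (wd v e5), hc.mul_i h w, s, comm_of e1 s ?_⟩
    rw [← mul_assoc b c, (hb.mul hc).sq h (alt_wd _ _) w e, rr_z hc.1, add_wd, wd_self, add_zero,
      add_self_M, i_zero h]

theorem ex_inv (h : Ex ι π) {b : N} (hb : Ov π b e1) (e : b * b = 1) {v : V} (hv : v 4 = 0) :
    ∃ c, Ov π c v ∧ c * c = 1 := by
  rcases ex_f (v 0) (v 1) (v 2) (v 3) with z | z | ⟨x, y, z, hf⟩ <;> rw [← vec_eq hv] at *
  · exact ⟨1, z ▸ Ov.one, mul_one 1⟩
  · exact ⟨b, z ▸ hb, e⟩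
  · set f : V := ![1, x, y, z, 0] with hf'
    have f1 : f ⬝ᵥ e1 = 1 := by simp [hf', e1, dotProduct, Fin.sum_univ_five]
    have fp : f ⬝ᵥ (e1 + v) = 0 := by rw [dotProduct_add, f1, hf]; rfl
    obtain ⟨n, hn⟩ := ex_lift h (tm_det fp)
    have rn : Rw (π n).1 := hn ▸ rw_tm (by rw [Pi.add_apply, hv]; rfl) f
    have ob := hb.conj rn
    rw [hn, tm_mulVec, f1, one_smul, ← add_assoc, add_self_V, zero_add] at ob
    refine ⟨_, ob, ?_⟩
    calc _ = n * (b * b) * n⁻¹ := by group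
      _ = 1 := by rw [e]; group

/-- `B = C_J(b₁, b₂)`. -/
def BB (π : N →* SL5) (b c : N) : Subgroup N where
  carrier := {n | (∃ v, Ov π n v) ∧ Commute n b ∧ Commute n c}
  one_mem' := ⟨⟨0, Ov.one⟩, Commute.one_left _, Commute.one_left _⟩
  mul_mem' := fun ⟨⟨_, h1⟩, h2, h3⟩ ⟨⟨_, k1⟩, k2, k3⟩ => ⟨⟨_, h1.mul k1⟩, h2.mul_left k2, h3.mul_left k3⟩
  inv_mem' := fun ⟨⟨_, h1⟩, h2, h3⟩ => ⟨⟨_, h1.inv⟩, h2.inv_left, h3.inv_left⟩

structure Dt (ι : M5 → N) (π : N →* SL5) (b c : N) : Prop where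
  ex : Ex ι π
  ob : Ov π b e1
  oc : Ov π c e2
  sb : b * b = 1
  sc : c * c = 1
  bc : c * b = b * c

variable {b c : N}

theorem w12 : wd e1 e2 ≠ 0 := by decide

theorem Dt.mem_i (D : Dt ι π b c) {a : M5} (ha : Alt a) : ι a ∈ BB π b c ↔ rr a = 0 := by
  have h := D.ex
  have key : ∀ {x : N} {w : V}, Ov π x w → (Commute (ι a) x ↔ wd w (rr a) = 0) := fun {x w} hx => by
    rw [← add_eq_left (a := a)]
    constructor
    · intro e
      refine i_inj h (ha.add (alt_wd _ _)) ha ?_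
      rw [← hx.act h ha, ← e.eq]; group
    · intro e
      have := hx.act h ha
      rw [e] at this
      show ι a * x = x * ι a
      conv_lhs => rw [← this]
      group
  constructor
  · rintro ⟨-, h1, h2⟩
    obtain ⟨x, hx⟩ := wd_eq_zero ((key D.ob).1 h1) (by decide)
    rcases F_cases x with rfl | rfl
    · rw [hx, zero_smul]
    · have := (key D.oc).1 h2
      rw [hx, one_smul, wd_comm] at this; exact absurd this w12
  · intro e
    exact ⟨⟨0, ov_i h ha⟩, (key D.ob).2 (by rw [e, wd_zero]), (key D.oc).2 (by rw [e, wd_zero])⟩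

theorem v_cases : ∀ a b c d : F, ![a, b, c, d, 0] = (0 : V) ∨ ![a, b, c, d, 0] = e1 ∨
    ![a, b, c, d, 0] = e2 ∨ ![a, b, c, d, 0] = e1 + e2 ∨ (wd e1 ![a, b, c, d, 0] ≠ 0 ∧
      wd e2 ![a, b, c, d, 0] ≠ 0 ∧ wd (e1 + e2) ![a, b, c, d, 0] ≠ 0) := by decide +kernel

theorem Dt.b_mem (D : Dt ι π b c) : b ∈ BB π b c := ⟨⟨_, D.ob⟩, Commute.refl b, D.bc.symm⟩

theorem Dt.c_mem (D : Dt ι π b c) : c ∈ BB π b c := ⟨⟨_, D.oc⟩, D.bc, Commute.refl c⟩

theorem Dt.exB (D : Dt ι π b c) {v : V} (hv : v 4 = 0) :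
    ∃ j ∈ BB π b c, Ov π j v ∧ j * j = 1 := by
  have h := D.ex
  have sbc : b * c * (b * c) = 1 := by
    calc _ = b * (c * b) * c := by group
      _ = b * b * (c * c) := by rw [D.bc]; group
      _ = 1 := by rw [D.sb, D.sc, mul_one]
  rcases v_cases (v 0) (v 1) (v 2) (v 3) with z | z | z | z | ⟨z1, z2, z3⟩ <;> rw [← vec_eq hv] at *
  · exact ⟨1, one_mem _, z ▸ Ov.one, mul_one 1⟩
  · exact ⟨b, D.b_mem, z ▸ D.ob, D.sb⟩
  · exact ⟨c, D.c_mem, z ▸ D.oc, D.sc⟩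
  · exact ⟨b * c, mul_mem D.b_mem D.c_mem, z ▸ D.ob.mul D.oc, sbc⟩
  · obtain ⟨j0, o0, s0⟩ := ex_inv h D.ob D.sb hv
    obtain ⟨j, oj, sj, cj⟩ := adj h D.ob o0 D.sb s0 rfl rfl z1
    refine ⟨j, ⟨⟨_, oj⟩, cj, ?_⟩, oj, sj⟩
    rcases cm h D.oc oj D.sc sj rfl rfl z2 with e | e
    · exact comm_of D.sc sj e
    · exfalso
      have q : b * c * j * (b * c * j) = ι (wd e2 v) := by
        calc _ = b * (c * (j * b)) * c * j := by group
          _ = b * (c * b) * j * c * j := by rw [cj]; group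
          _ = b * b * (c * j * (c * j)) := by rw [D.bc]; group
          _ = _ := by rw [D.sb, one_mul, e]
      rcases cm h (D.ob.mul D.oc) oj sbc sj rfl rfl z3 with e' | e' <;> rw [q] at e'
      · exact z2 (h.inj _ (alt_wd _ _) e')
      · have := i_inj h (alt_wd _ _) (alt_wd _ _) e'
        rw [add_wd] at this
        exact z1 (right_eq_add.1 this)

theorem Dt.sqB (D : Dt ι π b c) {j : N} (hj : j ∈ BB π b c) : j * j = 1 := by
  have h := D.ex
  obtain ⟨v, ov⟩ := hj.1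
  obtain ⟨k, hk, ok, sk⟩ := D.exB ov.1
  obtain ⟨a, ha, rfl⟩ := diff h (ok.2.trans ov.2.symm)
  have := (D.mem_i ha).1 ((Subgroup.mul_mem_cancel_left _ hk).1 hj)
  rw [ok.sq h Alt.zero ha (sk.trans (i_zero h).symm), this, wd_zero, add_zero, i_zero h]

/-- The type of an involution of `J`. -/
def Ty (ι : M5 → N) (π : N →* SL5) (b c x : N) (v : V) (e : F) : Prop :=
  ∃ j ∈ BB π b c, Ov π j v ∧ ∃ a, Alt a ∧ rr a = e • v ∧ x = j * ι a

theorem Dt.ty_ex (D : Dt ι π b c) {x : N} {v : V} (ox : Ov π x v) (sx : x * x = 1) (hv : v ≠ 0) :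
    ∃ e, Ty ι π b c x v e := by
  obtain ⟨j, hj, oj, sj⟩ := D.exB ox.1
  obtain ⟨a, e, ha, ra, ea⟩ := oj.lifts D.ex ox hv sj sx
  exact ⟨e, j, hj, oj, a, ha, ra, ea⟩

theorem Dt.ty_eq (D : Dt ι π b c) {x y : N} {u v : V} {e e' : F} (hx : Ty ι π b c x u e)
    (hy : Ty ι π b c y v e') (s : x * y * (x * y) = 1) (huv : wd u v ≠ 0) : e = e' := by
  have h := D.ex
  obtain ⟨j, hj, oj, a, ha, ra, rfl⟩ := hx
  obtain ⟨k, hk, ok, a', ha', ra', rfl⟩ := hy
  obtain ⟨d, hd, rd, ed⟩ := ok.prod h (b := j) ha ha'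
  rw [ed, (oj.mul ok).sq h Alt.zero hd ((D.sqB (mul_mem hj hk)).trans (i_zero h).symm), zero_add] at s
  have := h.inj _ (alt_wd _ _) s
  rw [rd, ra, ra', wd_sum] at this
  have q : ∀ e e' : F, e = e' ∨ e + e' = 1 := by decide
  rcases q e e' with z | z
  · exact z
  · rw [z, one_smul] at this; exact absurd this huv

theorem Dt.sign (D : Dt ι π b c) {n : N} (hn : Rw (π n).1) : ∃ e : F, ∀ j ∈ BB π b c, ∀ v,
    Ov π j v → n * j * n⁻¹ * ι (wd (e • (π n).1 *ᵥ v) e5) ∈ BB π b c := by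
  have h := D.ex
  set g := (π n).1 with hg
  have sq : ∀ j ∈ BB π b c, n * j * n⁻¹ * (n * j * n⁻¹) = 1 := fun j hj => by
    calc _ = n * (j * j) * n⁻¹ := by group
      _ = 1 := by rw [D.sqB hj]; group
  have sq2 : ∀ j ∈ BB π b c, ∀ k ∈ BB π b c,
      n * j * n⁻¹ * (n * k * n⁻¹) * (n * j * n⁻¹ * (n * k * n⁻¹)) = 1 := fun j hj k hk => by
    rw [← sq _ (mul_mem hj hk)]; group
  have inj : ∀ u v : V, wd (g *ᵥ u) (g *ᵥ v) = 0 → wd u v = 0 := fun u v e => by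
    have := h.act n _ (alt_wd u v)
    rw [act_wd, e, i_zero h] at this
    refine h.inj _ (alt_wd _ _) ?_
    calc ι (wd u v) = n⁻¹ * (n * ι (wd u v) * n⁻¹) * n := by group
      _ = 1 := by rw [this]; group
  have g12 : wd (g *ᵥ e1) (g *ᵥ e2) ≠ 0 := fun e => w12 (inj _ _ e)
  have g1 : g *ᵥ e1 ≠ 0 := fun z => g12 (by rw [z, zero_wd])
  have g2 : g *ᵥ e2 ≠ 0 := fun z => g12 (by rw [z, wd_zero])
  obtain ⟨e, he⟩ := D.ty_ex (D.ob.conj hn) (sq _ D.b_mem) g1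
  obtain ⟨e', he'⟩ := D.ty_ex (D.oc.conj hn) (sq _ D.c_mem) g2
  obtain rfl := D.ty_eq he he' (sq2 _ D.b_mem _ D.c_mem) g12
  refine ⟨e, fun j hj v ov => ?_⟩
  by_cases hv : v = 0
  · subst hv
    obtain ⟨a, ha, ea⟩ := diff h ((Ov.one (π := π)).2.trans ov.2.symm)
    rw [one_mul] at ea
    subst ea
    rw [mulVec_zero, smul_zero, zero_wd, i_zero h, mul_one, h.act n a ha, D.mem_i (ha.act _), hn.rr,
      (D.mem_i ha).1 hj, mulVec_zero]
  · have gv : g *ᵥ v ≠ 0 := fun z => hv (by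
      have := inj v e5 (by rw [z, zero_wd])
      rw [← rr_z ov.1, this]; exact zero_mulVec _)
    obtain ⟨e', he''⟩ := D.ty_ex (ov.conj hn) (sq _ hj) gv
    have ee : e = e' := by
      by_cases z : wd (g *ᵥ e1) (g *ᵥ v) = 0
      · obtain ⟨x, hx⟩ := wd_eq_zero z g1
        rcases F_cases x with rfl | rfl
        · exact absurd (by rw [hx, zero_smul]) gv
        · refine D.ty_eq he' he'' (sq2 _ D.c_mem _ hj) ?_
          rw [hx, one_smul, wd_comm]; exact g12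
      · exact D.ty_eq he he'' (sq2 _ D.b_mem _ hj) z
    subst ee
    obtain ⟨k, hk, ok, a, ha, ra, ea⟩ := he''
    rw [ea, mul_assoc, ← h.add _ _ ha (alt_wd _ _)]
    refine mul_mem hk ((D.mem_i (ha.add (alt_wd _ _))).2 ?_)
    rw [rr_add, ra, rr_z (by rw [Pi.smul_apply, ok.1, smul_zero]), add_self_V]

/-- `n` normalises `B`. -/
def Nm (π : N →* SL5) (b c n : N) : Prop := ∀ j ∈ BB π b c, n * j * n⁻¹ ∈ BB π b c

theorem Nm.mul {n m : N} (hn : Nm π b c n) (hm : Nm π b c m) : Nm π b c (n * m) := fun j hj => by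
  have := hn _ (hm j hj)
  rwa [show n * (m * j * m⁻¹) * n⁻¹ = n * m * j * (n * m)⁻¹ by group] at this

theorem Dt.nm_i (D : Dt ι π b c) {a : M5} (ha : Alt a) : Nm π b c (ι a) := fun j hj => by
  have h := D.ex
  obtain ⟨v, ov⟩ := hj.1
  have w := alt_wd v (rr a)
  have : ι a * j * (ι a)⁻¹ = j * ι (wd v (rr a)) := by
    have e := ov.inv.act h ha
    rw [h.add _ _ ha w] at e
    have cm : ι a * ι (wd v (rr a)) = ι (wd v (rr a)) * ι a := by
      rw [← h.add _ _ ha w, ← h.add _ _ w ha, add_comm]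
    calc _ = j * (j⁻¹ * ι a * j⁻¹⁻¹) * (ι a)⁻¹ := by group
      _ = _ := by rw [e, cm]; group
  rw [this]
  refine mul_mem hj ((D.mem_i w).2 ?_)
  rw [rr_wd, rr_four ha, ov.1, zero_smul, zero_smul, add_zero]

theorem Dt.nm_lift (D : Dt ι π b c) {n m : N} (hn : Nm π b c n) (e : (π n).1 = (π m).1) :
    Nm π b c m := by
  obtain ⟨a, ha, rfl⟩ := diff D.ex e
  exact hn.mul (D.nm_i ha)

theorem Dt.nm_sq (D : Dt ι π b c) {n : N} (hn : Rw (π n).1) : Nm π b c (n * n) := fun j hj => by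
  have h := D.ex
  obtain ⟨e, he⟩ := D.sign hn
  obtain ⟨v, ov⟩ := hj.1
  have w := alt_wd (e • (π n).1 *ᵥ v) e5
  have w' := alt_wd (e • (π n).1 *ᵥ ((π n).1 *ᵥ v)) e5
  have h1 := he j hj v ov
  have h2 := he _ h1 _ ((ov.conj hn).mul_i h w)
  rw [show ∀ x y : N, n * (n * j * n⁻¹ * x) * n⁻¹ * y = n * n * j * (n * n)⁻¹ * (n * x * n⁻¹ * y) from
    fun x y => by group, h.act n _ w, ← h.add _ _ (w.act _) w'] at h2
  refine (Subgroup.mul_mem_cancel_right _ ((D.mem_i ((w.act _).add w')).2 ?_)).1 h2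
  have v1 : ((π n).1 *ᵥ v) 4 = 0 := by rw [hn.four, ov.1]
  rw [rr_add, hn.rr, rr_z (by rw [Pi.smul_apply, v1, smul_zero]),
    rr_z (by rw [Pi.smul_apply, hn.four, v1, smul_zero]), mulVec_smul, add_self_V]

theorem Dt.nm_all (D : Dt ι π b c) {n : N} (hn : Rw (π n).1) : Nm π b c n := by
  have h := D.ex
  have one : ∀ x : F, x ≠ 0 → x = 1 := by decide
  have lift : ∀ A : M4, det A ≠ 0 → ∃ m, (π m).1 = emb A := fun A hA =>
    ex_lift h (by rw [det_emb, one _ hA])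
  have sq : ∀ A : M4, det (A * A) ≠ 0 → ∀ m, (π m).1 = emb (A * A) → Nm π b c m := fun A hA m hm => by
    obtain ⟨k, hk⟩ := lift A (fun z => hA (by rw [det_mul, z, zero_mul]))
    refine D.nm_lift (D.nm_sq (hk ▸ rw_emb A)) ?_
    rw [map_mul, coe_mul', hk, hm, emb_mul]
  have sq1 : ∀ m, (π m).1 = emb 1 → Nm π b c m := by
    have := sq 1 (by simp)
    rwa [Matrix.mul_one] at this
  obtain ⟨w, M, hw, e⟩ := rw_split hn
  have dM : det M ≠ 0 := by
    have := (π n).2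
    rw [e, det_mul, det_emb] at this
    exact fun z => by rw [z, mul_zero] at this; exact zero_ne_one this
  have key := diagonal_transvection_induction_of_det_ne_zero
    (fun A : M4 => ∀ m, (π m).1 = emb A → Nm π b c m) M dM (fun d hd => by
      have : diagonal d = (1 : M4) := by
        rw [det_diagonal, Finset.prod_ne_zero_iff] at hd
        rw [show d = fun _ => 1 from funext fun i => one _ (hd i (Finset.mem_univ i))]
        exact diagonal_one
      rw [this]; exact sq1) (fun t => by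
      rcases F_cases t.c with z | z
      · have : t.toMatrix = 1 := by simp [TransvectionStruct.toMatrix, z]
        rw [this]; exact sq1
      · obtain ⟨k, hk⟩ := tv_sq t.i t.j t.hij
        have e : t.toMatrix = _ := (by rw [TransvectionStruct.toMatrix, z]; rfl : t.toMatrix = _).trans
          hk.symm
        have d := t.det
        rw [e] at d ⊢
        exact sq _ (by rw [d]; exact one_ne_zero)) (fun A B hA hB pA pB m hm => by
      obtain ⟨x, hx⟩ := lift A hA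
      obtain ⟨y, hy⟩ := lift B hB
      refine D.nm_lift ((pA x hx).mul (pB y hy)) ?_
      rw [map_mul, coe_mul', hx, hy, hm, emb_mul])
  obtain ⟨j, hj, oj, -⟩ := D.exB hw
  obtain ⟨m, hm⟩ := lift M dM
  have nj : Nm π b c j := fun k hk => mul_mem (mul_mem hj hk) (inv_mem hj)
  refine D.nm_lift (nj.mul (key m hm)) ?_
  rw [map_mul, coe_mul', oj.2, hm, e]

theorem ap5 : Ap5Stmt.{u} := by
  intro N _ _ ι π h ⟨b, hb, sb⟩
  have ob : Ov π b e1 := ⟨rfl, by rw [hb, x15]⟩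
  obtain ⟨c0, o0, s0⟩ := ex_inv h ob sb (v := e2) rfl
  obtain ⟨c, oc, sc, bc⟩ := adj h ob o0 sb s0 rfl rfl w12
  have D : Dt ι π b c := ⟨h, ob, oc, sb, sc, bc⟩
  have i5 : ix 5 = 4 := rfl
  refine ⟨BB π b c, fun j hj => D.sqB hj, fun a ha => ?_, fun g => ⟨?_, fun hg => ?_⟩, fun n hn => ?_⟩
  · rw [D.mem_i ha, i5]
    exact ⟨fun e k => by rw [ha.symm, ← rr_apply a k, e]; rfl,
      fun e => funext fun k => by rw [rr_apply, ha.symm, e]; rfl⟩
  · rintro ⟨j, ⟨⟨v, ov⟩, -⟩, rfl⟩ i k hik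
    rw [ov.2, tm_apply]
    rw [i5] at hik
    have q : ∀ k : Fin 5, k ≠ 4 → e5 k = 0 := by decide
    rcases hik with z | z
    · rw [q k z, mul_zero, add_zero]
    · rw [z, ov.1, zero_mul, add_zero]
  · rw [i5] at hg
    obtain ⟨j, hj, oj, -⟩ := D.exB (v := fun i => g.1 i 4 + (1 : M5) i 4)
      (by rw [hg 4 4 (Or.inr rfl)]; exact two_F _)
    refine ⟨j, hj, Subtype.ext ?_⟩
    rw [oj.2]
    ext i k
    rw [tm_apply]
    have q : ∀ k : Fin 5, k ≠ 4 → e5 k = 0 := by decide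
    by_cases z : k = 4
    · subst z
      rw [show e5 4 = 1 from rfl, mul_one, add_comm (g.1 i 4), ← add_assoc, two_F, zero_add]
    · rw [q k z, mul_zero, add_zero, hg i k (Or.inl z)]
  · exact Subgroup.mem_normalizer_fintype (D.nm_all ((rw_iff _).2 hn))

end Cfsg.Agent.H97.LpAp
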