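import Cfsg.Agent.H45.OnDefs

set_option autoImplicit false

namespace Cfsg.Agent.H97.OnGrow

open Cfsg.Agent.H45.On

universe u

variable {G : Type u} [Group G]

/-- The product of `M` with a subgroup `B` that normalizes it. -/
def prodSub (M B : Subgroup G) (h : ∀ b ∈ B, cj b M = M) : Subgroup G where
  carrier := {w | ∃ m ∈ M, ∃ b ∈ B, w = m * b}
  one_mem' := ⟨1, M.one_mem, 1, B.one_mem, by simp⟩
  mul_mem' := by
    rintro _ _ ⟨m, hm, b, hb, rfl⟩ ⟨m', hm', b', hb', rfl⟩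
    refine ⟨m * (b * m' * b⁻¹), M.mul_mem hm ?_, b * b', B.mul_mem hb hb', by group⟩
    have := cj_mem (g := b) hm'
    rwa [h b hb] at this
  inv_mem' := by
    rintro _ ⟨m, hm, b, hb, rfl⟩
    refine ⟨b⁻¹ * m⁻¹ * b⁻¹⁻¹, ?_, b⁻¹, B.inv_mem hb, by group⟩
    have := cj_mem (g := b⁻¹) (M.inv_mem hm)
    rwa [h _ (B.inv_mem hb)] at this

theorem relIndex_eq_ncard (H Y : Subgroup G) :
    Y.relIndex H = (MulAction.orbit H ((1 : G) : G ⧸ Y)).ncard := by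
  rw [← MulAction.index_stabilizer, Subgroup.relIndex]
  congr 1
  ext x
  rw [Subgroup.mem_subgroupOf, MulAction.mem_stabilizer_iff]
  change _ ↔ (((x : G) * 1 : G) : G ⧸ Y) = ((1 : G) : G ⧸ Y)
  rw [eq_comm, QuotientGroup.eq]
  simp

theorem relIndex_prod (M B Y : Subgroup G) (h : ∀ b ∈ B, cj b M = M) (hB : B ≤ Y) :
    Y.relIndex (prodSub M B h) = Y.relIndex M := by
  rw [relIndex_eq_ncard, relIndex_eq_ncard]
  congr 1
  ext z
  simp only [MulAction.mem_orbit_iff]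
  constructor
  · rintro ⟨⟨_, m, hm, b, hb, rfl⟩, rfl⟩
    refine ⟨⟨m, hm⟩, ?_⟩
    change ((m * 1 : G) : G ⧸ Y) = ((m * b * 1 : G) : G ⧸ Y)
    rw [QuotientGroup.eq]
    simpa using hB hb
  · rintro ⟨⟨m, hm⟩, rfl⟩
    exact ⟨⟨m, m, hm, 1, B.one_mem, by simp⟩, rfl⟩

theorem grow (hSy : SyStmt.{u}) : GrowStmt.{u} := by
  intro G _ _ M Y B Q hB hBY hBM hC hQ hev
  have : Fact (Nat.Prime 2) := ⟨Nat.prime_two⟩
  set W := prodSub M B hBM with hW
  have hMW : M ≤ W := fun m hm => ⟨m, hm, 1, B.one_mem, by simp⟩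
  have hBW : B ≤ W := fun b hb => ⟨1, M.one_mem, b, hb, by simp⟩
  have hP0 : IsPGroup 2 ↥(Q ⊔ B) := by
    refine IsPGroup.to_sup_of_normal_left' hQ.2.1 hB ?_
    intro b hb
    rw [Subgroup.mem_normalizer_iff]
    intro q
    constructor
    · intro hq
      rw [hC b hb q (hQ.1 hq), mul_inv_cancel_right]; exact hq
    · intro hq
      have e := hC b hb _ (hQ.1 hq)
      have e2 : b * q * b⁻¹ = q := by
        rw [inv_mul_cancel_right, mul_assoc b q, ] at e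
        have e3 := mul_left_cancel e
        calc b * q * b⁻¹ = b * (q * b⁻¹) := by group
          _ = q := e3
      rwa [e2] at hq
  have hP0W : Q ⊔ B ≤ W := sup_le ((hQ.1.trans inf_le_left).trans hMW) hBW
  have hP0Y : Q ⊔ B ≤ Y := sup_le (hQ.1.trans inf_le_right) hBY
  obtain ⟨P, hP0P, hP⟩ := (hSy W (Q ⊔ B) hP0W hP0).1
  have hQeq : P ⊓ (M ⊓ Y) = Q := by
    refine (hSy (M ⊓ Y) (P ⊓ (M ⊓ Y)) inf_le_right (hP.2.1.to_le inf_le_left)).2.1 Q hQ ?_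
    exact le_inf (le_sup_left.trans hP0P) hQ.1
  have hPY : ∀ p ∈ P, p ∈ Y → p ∈ Q ⊔ B := by
    intro p hp hy
    obtain ⟨m, hm, b, hb, rfl⟩ := hP.1 hp
    have hbP : b ∈ P := hP0P (le_sup_right (a := Q) hb)
    have hmQ : m ∈ Q := by
      rw [← hQeq]
      refine ⟨?_, hm, ?_⟩
      · simpa using P.mul_mem hp (P.inv_mem hbP)
      · simpa using Y.mul_mem hy (Y.inv_mem (hBY hb))
    exact Subgroup.mul_mem_sup hmQ hb
  have hne : ¬ P ≤ Q ⊔ B := by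
    intro hle
    have h1 : Y.relIndex W ∣ P.relIndex W := Subgroup.relIndex_dvd_of_le_left W (hle.trans hP0Y)
    rw [hW, relIndex_prod M B Y hBM hBY] at h1
    rw [Subgroup.inf_relIndex_left] at hev
    exact (Nat.not_even_iff_odd.2 hP.2.2) (hev.two_dvd.trans h1 |> even_iff_two_dvd.2)
  have : Group.IsNilpotent P := hP.2.1.isNilpotent
  have hlt : (Q ⊔ B).subgroupOf P < ⊤ := by
    rw [lt_top_iff_ne_top, Ne, Subgroup.subgroupOf_eq_top]; exact hne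
  obtain ⟨g', hg'n, hg'⟩ := SetLike.exists_of_lt (Group.normalizerCondition_of_isNilpotent _ hlt)
  rw [Subgroup.mem_subgroupOf] at hg'
  have hn : ∀ x, x ∈ Q ⊔ B → (g' : G) * x * (g' : G)⁻¹ ∈ Q ⊔ B := by
    intro x hx
    have := (Subgroup.mem_normalizer_iff.1 hg'n ⟨x, hP0P hx⟩).1 (Subgroup.mem_subgroupOf.2 hx)
    simpa [Subgroup.mem_subgroupOf] using this
  obtain ⟨g, hg, b0, hb0, e⟩ := hP.1 g'.2
  have hb0' : b0 ∈ Q ⊔ B := le_sup_right (a := Q) hb0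
  have hgn : ∀ x, x ∈ Q ⊔ B → g * x * g⁻¹ ∈ Q ⊔ B := by
    intro x hx
    have := hn _ ((Q ⊔ B).mul_mem ((Q ⊔ B).mul_mem ((Q ⊔ B).inv_mem hb0') hx) hb0')
    rw [e] at this
    simpa [mul_assoc] using this
  refine ⟨g, hg, ?_, ?_, ?_⟩
  · intro hy
    refine hg' (hPY _ g'.2 ?_)
    rw [e]; exact Y.mul_mem hy (hBY hb0)
  · symm
    refine Subgroup.eq_of_le_of_card_ge ?_ ?_ |>.symm
    · rintro _ ⟨x, hx, rfl⟩
      exact hgn x hx
    · rw [card_cj]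
  · intro b hb
    have hb' : b ∈ Q ⊔ B := le_sup_right (a := Q) hb
    have h1 : b⁻¹ * (g * b * g⁻¹) ∈ Q ⊔ B :=
      (Q ⊔ B).mul_mem ((Q ⊔ B).inv_mem hb') (hgn b hb')
    rw [← hQeq]
    refine ⟨hP0P h1, ?_, hP0Y h1⟩
    have h2 := cj_mem (g := b⁻¹) hg
    rw [hBM _ (B.inv_mem hb)] at h2
    simpa [mul_assoc] using M.mul_mem h2 (M.inv_mem hg)

end Cfsg.Agent.H97.OnGrow
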